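import Mathlib.RingTheory.Artinian.Ring
import Mathlib.RingTheory.Jacobson.Ideal
import Mathlib.LinearAlgebra.FiniteDimensional.Basic
import Mathlib.Algebra.Algebra.Subalgebra.Basic
import Mathlib.LinearAlgebra.Dual.Lemmas
import Mathlib.RingTheory.Nilpotent.Basic
import Mathlib.Tactic.Module
import Mathlib.Tactic.LinearCombination

/-!
# Local symmetric algebras with small centre are commutative

A local symmetric algebra whose centre has dimension at most four is commutative
(Külshammer).
-/

set_option autoImplicit false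
set_option linter.style.haveILetI false
set_option maxHeartbeats 1600000

namespace Cfsg.Agent.Lib.LocalBlock

open Submodule

universe u v

variable {k : Type u} [Field k] {A : Type v} [Ring A] [Algebra k A]

/-- The span of the commutators. -/
def commSpan (k : Type u) [Field k] (A : Type v) [Ring A] [Algebra k A] : Submodule k A :=
  Submodule.span k (Set.range fun q : A × A => q.1 * q.2 - q.2 * q.1)

theorem comm_mem (a b : A) : a * b - b * a ∈ commSpan k A :=
  Submodule.subset_span ⟨(a, b), rfl⟩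

theorem comm_add_algebraMap (c d : k) (x y : A) :
    (algebraMap k A c + x) * (algebraMap k A d + y) - (algebraMap k A d + y) * (algebraMap k A c + x) =
      x * y - y * x := by
  rw [add_mul, mul_add, mul_add, add_mul, mul_add, mul_add, Algebra.commutes c y,
    ← Algebra.commutes d x, ← map_mul, ← map_mul, mul_comm c d]
  abel

/-- For a symmetric algebra the commutators have codimension at most the dimension of the
centre. -/
theorem finrank_le_center [FiniteDimensional k A] (t : A →ₗ[k] k)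
    (hsym : ∀ a b, t (a * b) = t (b * a)) (hnd : ∀ a, (∀ b, t (a * b) = 0) → a = 0) :
    Module.finrank k A ≤
      Module.finrank k (commSpan k A) + Module.finrank k (Subalgebra.center k A) := by
  let Φ : A →ₗ[k] Module.Dual k A := LinearMap.mk₂ k (fun a b => t (a * b))
    (fun a a' b => by rw [add_mul, map_add])
    (fun c a b => by rw [smul_mul_assoc, map_smul, smul_eq_mul])
    (fun a b b' => by rw [mul_add, map_add])
    (fun c a b => by rw [mul_smul_comm, map_smul, smul_eq_mul])
  have hΦ : Function.Injective Φ := (injective_iff_map_eq_zero _).2 fun a ha =>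
    hnd a fun b => LinearMap.congr_fun ha b
  let e : A ≃ₗ[k] Module.Dual k A :=
    LinearMap.linearEquivOfInjective Φ hΦ Subspace.dual_finrank_eq.symm
  have hle : (commSpan k A).dualAnnihilator.comap e.toLinearMap ≤
      (Subalgebra.center k A).toSubmodule := by
    intro z hz
    rw [Submodule.mem_comap, Submodule.mem_dualAnnihilator] at hz
    refine (Subalgebra.mem_center_iff (R := k)).2 fun (a : A) => sub_eq_zero.1 (hnd _ fun (b : A) => ?_)
    have h1 : t (z * (b * a - a * b)) = 0 := hz _ (comm_mem b a)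
    rw [mul_sub, map_sub, sub_eq_zero] at h1
    rw [sub_mul, map_sub, sub_eq_zero, mul_assoc a, hsym a, mul_assoc z a, ← h1, mul_assoc]
  have h1 := Submodule.finrank_mono hle
  rw [← Subspace.finrank_add_finrank_dualAnnihilator_eq (commSpan k A)]
  refine Nat.add_le_add_left (le_trans (le_of_eq ?_) h1) _
  exact (LinearEquiv.ofSubmodule' e (commSpan k A).dualAnnihilator).finrank_eq.symm

/-- A local symmetric algebra whose centre has dimension at most four is commutative. -/
theorem commutative_of_small [FiniteDimensional k A]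
    (hloc : ∀ a : A, ∃ c : k, IsNilpotent (a - algebraMap k A c)) (t : A →ₗ[k] k)
    (hsym : ∀ a b, t (a * b) = t (b * a)) (hnd : ∀ a, (∀ b, t (a * b) = 0) → a = 0)
    (hZ : Module.finrank k (Subalgebra.center k A) ≤ 4) : ∀ a b : A, a * b = b * a := by
  classical
  rcases subsingleton_or_nontrivial A with h | h
  · exact fun a b => Subsingleton.elim _ _
  haveI : IsArtinianRing A := IsArtinianRing.of_finite k A
  -- non-units are nilpotent
  have hdich : ∀ a : A, IsUnit a ∨ IsNilpotent a := fun a => by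
    obtain ⟨c, hc⟩ := hloc a
    rcases eq_or_ne c 0 with rfl | hc0
    · exact Or.inr (by simpa using hc)
    · refine Or.inl ?_
      have hu : IsUnit (algebraMap k A c) := (IsUnit.mk0 c hc0).map _
      have h2 := hc.isUnit_add_left_of_commute hu (Algebra.commutes c _).symm
      rwa [add_sub_cancel] at h2
  have hnu : ∀ {a : A}, IsNilpotent a → ¬ IsUnit a := fun ha hu => ha.not_isUnit hu
  have hleft : ∀ {a : A}, IsNilpotent a → ∀ b : A, IsNilpotent (b * a) := by
    intro a ha b
    refine (hdich (b * a)).resolve_left fun hu => ?_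
    obtain ⟨v, hv⟩ := hu
    have h1 : ((v⁻¹ : Aˣ) : A) * b * a = 1 := by rw [mul_assoc, ← hv, Units.inv_mul]
    obtain ⟨n, hn⟩ := ha
    have h2 : ∀ m, (((v⁻¹ : Aˣ) : A) * b) ^ m * a ^ m = 1 := by
      intro m
      induction m with
      | zero => simp
      | succ m ih =>
        rw [pow_succ, pow_succ', mul_assoc, ← mul_assoc (((v⁻¹ : Aˣ) : A) * b), h1, one_mul, ih]
    have h3 := h2 n
    rw [hn, mul_zero] at h3
    exact zero_ne_one h3
  have hright : ∀ {a : A}, IsNilpotent a → ∀ b : A, IsNilpotent (a * b) := fun {a} ha b => by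
    obtain ⟨n, hn⟩ := hleft ha b
    refine ⟨n + 1, ?_⟩
    rw [pow_succ, show (a * b) ^ n * (a * b) = a * (b * a) ^ n * b by
      rw [← mul_assoc, mul_pow_mul], hn, mul_zero, zero_mul]
  have hadd : ∀ {a b : A}, IsNilpotent a → IsNilpotent b → IsNilpotent (a + b) := by
    intro a b ha hb
    refine (hdich (a + b)).resolve_left fun hu => ?_
    obtain ⟨v, hv⟩ := hu
    have h1 : ((v⁻¹ : Aˣ) : A) * a = 1 - ((v⁻¹ : Aˣ) : A) * b := by
      rw [eq_sub_iff_add_eq, ← mul_add, ← hv, Units.inv_mul]
    have h2 : IsNilpotent (((v⁻¹ : Aˣ) : A) * a) := hleft ha _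
    rw [h1] at h2
    exact hnu h2 (hleft hb _).isUnit_one_sub
  obtain ⟨J, hJmem⟩ : ∃ J : Submodule k A, ∀ a, a ∈ J ↔ IsNilpotent a :=
    ⟨{ carrier := {a | IsNilpotent a}
       add_mem' := fun ha hb => hadd ha hb
       zero_mem' := IsNilpotent.zero
       smul_mem' := fun c a ha => by
        show IsNilpotent (c • a)
        rw [Algebra.smul_def]
        exact hleft ha _ }, fun _ => Iff.rfl⟩
  have hJr : ∀ (a : A) {x : A}, x ∈ J → x * a ∈ J := fun a x hx =>
    (hJmem _).2 (hright ((hJmem _).1 hx) a)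
  have h1J : (1 : A) ∉ J := fun h => hnu ((hJmem _).1 h) isUnit_one
  have hsplit : ∀ a : A, ∃ (c : k) (x : A), x ∈ J ∧ a = algebraMap k A c + x := fun a => by
    obtain ⟨c, hc⟩ := hloc a
    exact ⟨c, _, (hJmem _).2 hc, (add_sub_cancel _ _).symm⟩
  -- the radical is nilpotent
  obtain ⟨N, hN⟩ : ∃ N : ℕ, J ^ N = ⊥ := by
    obtain ⟨N, hN⟩ := IsArtinianRing.isNilpotent_jacobson_bot (R := A)
    have hJI : ∀ a ∈ J, a ∈ Ideal.jacobson (⊥ : Ideal A) := by
      intro a ha
      rw [Ideal.mem_jacobson_iff]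
      intro y
      obtain ⟨v, hv⟩ := (hleft ((hJmem _).1 ha) y).isUnit_add_one
      refine ⟨((v⁻¹ : Aˣ) : A), ?_⟩
      rw [Ideal.mem_bot, sub_eq_zero, mul_assoc, show ((v⁻¹ : Aˣ) : A) * (y * a) +
        ((v⁻¹ : Aˣ) : A) = ((v⁻¹ : Aˣ) : A) * (y * a + 1) by rw [mul_add, mul_one], ← hv,
        Units.inv_mul]
    have hpow : ∀ (n : ℕ) (a : A), a ∈ J ^ (n + 1) → a ∈ Ideal.jacobson (⊥ : Ideal A) ^ (n + 1) := by
      intro n
      induction n with
      | zero =>
        intro a ha
        rw [zero_add, pow_one] at ha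
        rw [zero_add, Submodule.pow_one]
        exact hJI a ha
      | succ n ih =>
        intro a ha
        rw [pow_succ] at ha
        rw [Submodule.pow_succ]
        induction ha using Submodule.mul_induction_on' with
        | mem_mul_mem x hx y hy => exact Ideal.mul_mem_mul (ih x hx) (hJI y hy)
        | add x _ y _ h1 h2 => exact add_mem h1 h2
    refine ⟨N + 1, (Submodule.eq_bot_iff _).2 fun a ha => ?_⟩
    have h1 := hpow N a ha
    rw [Submodule.pow_succ, hN, Submodule.zero_eq_bot, Submodule.bot_mul, Submodule.mem_bot] at h1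
    exact h1
  have hdesc : ∀ n : ℕ, J ^ (n + 1 + 1) ≤ J ^ (n + 1) := by
    intro n
    rw [pow_succ (n := n + 1)]
    refine Submodule.mul_le.2 fun x hx y hy => ?_
    induction n generalizing x with
    | zero => rw [zero_add, pow_one] at hx ⊢; exact hJr y hx
    | succ n ih =>
      rw [pow_succ' (n := n + 1)] at hx ⊢
      induction hx using Submodule.mul_induction_on' with
      | mem_mul_mem a ha b hb =>
        rw [mul_assoc]
        exact Submodule.mul_mem_mul ha (ih b hb)
      | add a _ b _ h1 h2 => rw [add_mul]; exact add_mem h1 h2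
  have hmono : ∀ {m n : ℕ}, 0 < m → m ≤ n → J ^ n ≤ J ^ m := by
    intro m n hm hmn
    induction n, hmn using Nat.le_induction with
    | base => exact le_rfl
    | succ n hn ih =>
      obtain ⟨n, rfl⟩ : ∃ n', n = n' + 1 := ⟨n - 1, by omega⟩
      exact (hdesc n).trans ih
  have hK : commSpan k A ≤ J ^ 2 := by
    rw [pow_two]
    refine Submodule.span_le.2 ?_
    rintro _ ⟨⟨a, b⟩, rfl⟩
    obtain ⟨c, x, hx, rfl⟩ := hsplit a
    obtain ⟨d, y, hy, rfl⟩ := hsplit b
    show _ ∈ J * J
    dsimp only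
    rw [comm_add_algebraMap]
    exact sub_mem (Submodule.mul_mem_mul hx hy) (Submodule.mul_mem_mul hy hx)
  have hcomm_of : (∀ x ∈ J, ∀ y ∈ J, x * y = y * x) → ∀ a b : A, a * b = b * a := by
    intro h a b
    obtain ⟨c, x, hx, rfl⟩ := hsplit a
    obtain ⟨d, y, hy, rfl⟩ := hsplit b
    rw [← sub_eq_zero, comm_add_algebraMap, sub_eq_zero]
    exact h x hx y hy
  have htK : ∀ w ∈ commSpan k A, t w = 0 := by
    intro w hw
    induction hw using Submodule.span_induction with
    | mem w hw => obtain ⟨⟨a, b⟩, rfl⟩ := hw; rw [map_sub, hsym, sub_self]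
    | zero => exact map_zero t
    | add x y _ _ hx hy => rw [map_add, hx, hy, add_zero]
    | smul c x _ hx => rw [map_smul, hx, smul_zero]
  by_cases hJ3 : J ^ 3 = ⊥
  · refine hcomm_of fun x hx y hy => sub_eq_zero.1 (hnd _ fun b => ?_)
    obtain ⟨c, z, hz, rfl⟩ := hsplit b
    have h0 : (x * y - y * x) * z = 0 := by
      have h1 : (x * y - y * x) * z ∈ J ^ 3 := by
        rw [pow_succ (n := 2)]
        refine Submodule.mul_mem_mul ?_ hz
        rw [pow_two]
        exact sub_mem (Submodule.mul_mem_mul hx hy) (Submodule.mul_mem_mul hy hx)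
      rwa [hJ3, Submodule.mem_bot] at h1
    rw [mul_add, map_add, h0, map_zero, add_zero, ← Algebra.commutes c, ← Algebra.smul_def,
      map_smul, map_sub, hsym, sub_self, smul_zero]
  -- the last nonzero power escapes the commutators
  obtain ⟨s, hs3, hsK⟩ : ∃ s ∈ J ^ 3, s ∉ commSpan k A := by
    have hex : ∃ L, J ^ L = ⊥ := ⟨N, hN⟩
    have hL := Nat.find_spec hex
    set L := Nat.find hex
    have hL4 : 4 ≤ L := by
      by_contra hlt
      refine hJ3 (le_bot_iff.1 ?_)
      rcases Nat.eq_zero_or_pos L with h0 | hpos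
      · rw [h0, pow_zero, Submodule.one_eq_span] at hL
        exact absurd ((Submodule.eq_bot_iff _).1 hL 1 (Submodule.mem_span_singleton_self _)) one_ne_zero
      · exact (hmono hpos (by omega)).trans hL.le
    obtain ⟨L', hL'⟩ : ∃ L', L = L' + 1 := ⟨L - 1, by omega⟩
    obtain ⟨s, hs, hs0⟩ := Submodule.exists_mem_ne_zero_of_ne_bot
      (Nat.find_min hex (show L' < L by omega))
    refine ⟨s, hmono (by norm_num) (by omega) hs, fun hsK => hs0 (hnd s fun b => ?_)⟩
    obtain ⟨c, z, hz, rfl⟩ := hsplit b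
    have h1 : s * z = 0 := by
      have h2 : s * z ∈ J ^ L := by rw [hL', pow_succ]; exact Submodule.mul_mem_mul hs hz
      rwa [hL, Submodule.mem_bot] at h2
    rw [mul_add, map_add, h1, map_zero, add_zero, ← Algebra.commutes c, ← Algebra.smul_def,
      map_smul, htK s hsK, smul_zero]
  -- dimensions
  set U : Submodule k A := commSpan k A ⊔ J ^ 3
  have hU : commSpan k A < U := lt_of_le_of_ne le_sup_left fun h => hsK
    (h.ge (Submodule.mem_sup_right hs3))
  have hU2 : U ≤ J ^ 2 := sup_le hK (hmono (by norm_num) (by norm_num))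
  have hJ2J : J ^ 2 ≤ J := by
    have := hmono (m := 1) (n := 2) one_pos (by norm_num)
    rwa [pow_one] at this
  have hJA : Module.finrank k J < Module.finrank k A :=
    Submodule.finrank_lt (fun h => h1J (h.ge Submodule.mem_top))
  have hcent := finrank_le_center t hsym hnd
  have hd1 := Submodule.finrank_lt_finrank_of_lt hU
  have hd2 := Submodule.finrank_mono hU2
  have hd3 := Submodule.finrank_mono hJ2J
  refine hcomm_of ?_
  by_cases hn1 : Module.finrank k J ≤ Module.finrank k ↥(J ^ 2 : Submodule k A) + 1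
  · -- one generator
    obtain ⟨x, hxJ, hgen⟩ : ∃ x ∈ J, J ≤ span k {x} ⊔ J ^ 2 := by
      rcases eq_or_lt_of_le hJ2J with h2 | h2
      · exact ⟨0, J.zero_mem, le_trans (le_of_eq h2.symm) le_sup_right⟩
      · obtain ⟨x, hx, hx2⟩ := SetLike.exists_of_lt h2
        refine ⟨x, hx, ?_⟩
        have hlt : J ^ 2 < span k {x} ⊔ J ^ 2 := lt_of_le_of_ne le_sup_right fun h =>
          hx2 (h.ge (Submodule.mem_sup_left (Submodule.mem_span_singleton_self x)))
        have hle : span k {x} ⊔ J ^ 2 ≤ J :=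
          sup_le (by rwa [Submodule.span_singleton_le_iff_mem]) hJ2J
        have h3 := Submodule.finrank_lt_finrank_of_lt hlt
        exact (Submodule.eq_of_le_of_finrank_le hle (by omega)).ge
    let R := Algebra.adjoin k ({x} : Set A)
    have hxR : x ∈ R := Algebra.subset_adjoin rfl
    have hstep : ∀ i : ℕ, J ^ (i + 1) ≤ R.toSubmodule ⊔ J ^ (i + 1 + 1) := by
      intro i
      have h1 : ∀ i : ℕ, J ^ (i + 1) ≤ span k {x ^ (i + 1)} ⊔ J ^ (i + 1 + 1) := by
        intro i
        induction i with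
        | zero => simpa using hgen
        | succ i ih =>
          rw [pow_succ (n := i + 1)]
          refine (mul_le_mul' ih hgen).trans ?_
          rw [Submodule.sup_mul, Submodule.mul_sup, Submodule.mul_sup, Submodule.span_mul_span,
            Set.singleton_mul_singleton, ← pow_succ]
          refine sup_le (sup_le le_sup_left (le_sup_of_le_right ?_))
            (sup_le (le_sup_of_le_right ?_) (le_sup_of_le_right ?_))
          · rw [show i + 1 + 1 + 1 = (i + 1) + 2 by ring, pow_add (m := i + 1)]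
            exact mul_le_mul' ((Submodule.span_singleton_le_iff_mem _ _).2
              (Submodule.pow_mem_pow _ hxJ _)) le_rfl
          · rw [pow_succ (n := i + 1 + 1)]
            exact mul_le_mul' le_rfl ((Submodule.span_singleton_le_iff_mem _ _).2 hxJ)
          · rw [← pow_add]
            exact hmono (by omega) (by omega)
      exact (h1 i).trans (sup_le_sup_right ((Submodule.span_singleton_le_iff_mem _ _).2
        (pow_mem hxR _)) _)
    have hall : ∀ i, J ≤ R.toSubmodule ⊔ J ^ (i + 1) := by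
      intro i
      induction i with
      | zero => simp
      | succ i ih => exact ih.trans (sup_le le_sup_left (hstep i))
    intro a ha b hb
    have h3 : ∀ a ∈ J, a ∈ R.toSubmodule := fun a ha => by
      have h4 := hall N ha
      rwa [show J ^ (N + 1) = ⊥ from by rw [pow_succ, hN, Submodule.bot_mul], sup_bot_eq] at h4
    exact Algebra.commute_of_mem_adjoin_singleton_of_commute (h3 b hb)
      (Algebra.commute_of_mem_adjoin_singleton_of_commute (h3 a ha) (Commute.refl x)).symm
  -- two generators are impossible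
  exfalso
  have hUeq : J ^ 2 ≤ U := (Submodule.eq_of_le_of_finrank_le hU2 (by omega)).ge
  obtain ⟨x, y, hxJ, hyJ, hgen⟩ : ∃ x y, x ∈ J ∧ y ∈ J ∧ J ≤ span k {x, y} ⊔ J ^ 2 := by
    obtain ⟨x, hx, hx2⟩ := SetLike.exists_of_lt (lt_of_le_of_ne hJ2J fun h => hn1 (by rw [h]; omega))
    have hsx : span k {x} ⊔ J ^ 2 ≤ J := sup_le ((Submodule.span_singleton_le_iff_mem _ _).2 hx) hJ2J
    have hlt : J ^ 2 < span k {x} ⊔ J ^ 2 := lt_of_le_of_ne le_sup_right fun h =>
      hx2 (h.ge (Submodule.mem_sup_left (Submodule.mem_span_singleton_self x)))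
    have h3 := Submodule.finrank_lt_finrank_of_lt hlt
    rcases eq_or_lt_of_le hsx with h4 | h4
    · exact ⟨x, x, hx, hx, le_trans (le_of_eq h4.symm) (sup_le_sup_right (Submodule.span_mono (by simp)) _)⟩
    obtain ⟨y, hy, hy2⟩ := SetLike.exists_of_lt h4
    refine ⟨x, y, hx, hy, ?_⟩
    have hle : span k {x, y} ⊔ J ^ 2 ≤ J := sup_le (Submodule.span_le.2 fun z hz => by
      rcases hz with rfl | rfl
      · exact hx
      · exact hy) hJ2J
    have hlt2 : span k {x} ⊔ J ^ 2 < span k {x, y} ⊔ J ^ 2 := lt_of_le_of_ne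
      (sup_le_sup_right (Submodule.span_mono (by simp)) _) fun h =>
        hy2 (h.ge (Submodule.mem_sup_left (Submodule.subset_span (by simp))))
    have h5 := Submodule.finrank_lt_finrank_of_lt hlt2
    exact (Submodule.eq_of_le_of_finrank_le hle (by omega)).ge
  have hdec : ∀ u ∈ J, ∃ (α β : k) (j : A), j ∈ J ^ 2 ∧ u = α • x + β • y + j := by
    intro u hu
    obtain ⟨v, hv, j, hj, rfl⟩ := Submodule.mem_sup.1 (hgen hu)
    obtain ⟨α, β, rfl⟩ := Submodule.mem_span_pair.1 hv
    exact ⟨α, β, j, hj, rfl⟩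
  set w := x * y - y * x with hw
  have hw2 : w ∈ J ^ 2 := by
    rw [pow_two]; exact sub_mem (Submodule.mul_mem_mul hxJ hyJ) (Submodule.mul_mem_mul hyJ hxJ)
  have h21 : ∀ {j u : A}, j ∈ J ^ 2 → u ∈ J → j * u ∈ J ^ 3 ∧ u * j ∈ J ^ 3 := fun hj hu =>
    ⟨by rw [pow_succ (n := 2)]; exact Submodule.mul_mem_mul hj hu,
     by rw [pow_succ' (n := 2)]; exact Submodule.mul_mem_mul hu hj⟩
  have hgenW : J ^ 2 ≤ span k {w} ⊔ J ^ 3 := by
    refine hUeq.trans (sup_le (Submodule.span_le.2 ?_) le_sup_right)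
    rintro _ ⟨⟨a, b⟩, rfl⟩
    obtain ⟨c, a', ha', rfl⟩ := hsplit a
    obtain ⟨d, b', hb', rfl⟩ := hsplit b
    obtain ⟨α, β, j, hj, rfl⟩ := hdec a' ha'
    obtain ⟨γ, δ, i, hi, rfl⟩ := hdec b' hb'
    have hlin : α • x + β • y ∈ J := add_mem (J.smul_mem _ hxJ) (J.smul_mem _ hyJ)
    have hlin' : γ • x + δ • y ∈ J := add_mem (J.smul_mem _ hxJ) (J.smul_mem _ hyJ)
    refine Submodule.mem_sup.2 ⟨(α * δ - β * γ) • w,
      Submodule.smul_mem _ _ (Submodule.mem_span_singleton_self _),
      ((α • x + β • y) * i - i * (α • x + β • y)) + (j * (γ • x + δ • y + i) -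
        (γ • x + δ • y + i) * j), ?_, ?_⟩
    · exact add_mem (sub_mem (h21 hi hlin).2 (h21 hi hlin).1)
        (sub_mem (h21 hj hb').1 (h21 hj hb').2)
    · dsimp only
      rw [comm_add_algebraMap]
      simp only [hw, add_mul, mul_add, smul_mul_assoc, mul_smul_comm, smul_sub, sub_smul, smul_smul]
      module
  have hM : ∀ {u v : A}, u ∈ J → v ∈ J → ∃ m : k, u * v - m • w ∈ J ^ 3 := by
    intro u v hu hv
    have huv : u * v ∈ J ^ 2 := by rw [pow_two]; exact Submodule.mul_mem_mul hu hv
    obtain ⟨a, ha, b, hb, hab⟩ := Submodule.mem_sup.1 (hgenW huv)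
    obtain ⟨m, rfl⟩ := Submodule.mem_span_singleton.1 ha
    exact ⟨m, by rw [← hab, add_sub_cancel_left]; exact hb⟩
  obtain ⟨a, hxx⟩ := hM hxJ hxJ
  obtain ⟨b, hxy⟩ := hM hxJ hyJ
  obtain ⟨c, hyx⟩ := hM hyJ hxJ
  obtain ⟨d, hyy⟩ := hM hyJ hyJ
  have hw3 : w ∉ J ^ 3 := fun h => by
    have h23 : J ^ 2 ≤ J ^ 3 := hgenW.trans (sup_le (by rwa [Submodule.span_singleton_le_iff_mem]) le_rfl)
    have hall : ∀ i, J ^ 2 ≤ J ^ (i + 2) := by
      intro i
      induction i with
      | zero => exact le_rfl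
      | succ i ih =>
        refine h23.trans ?_
        rw [pow_succ (n := 2), show i + 1 + 2 = i + 2 + 1 by ring, pow_succ (n := i + 2)]
        exact mul_le_mul' ih le_rfl
    refine hJ3 (le_bot_iff.1 ?_)
    exact ((hmono (by norm_num) (by norm_num)).trans (hall N)).trans
      (by rw [pow_add, hN, Submodule.bot_mul])
  have hbc : b - c = 1 := by
    by_contra hne
    refine hw3 ?_
    have h1 := sub_mem hxy hyx
    rw [show x * y - b • w - (y * x - c • w) = (1 - (b - c)) • w by
      rw [sub_smul, one_smul, sub_smul, hw]; abel] at h1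
    exact (Submodule.smul_mem_iff _ (sub_ne_zero.2 (Ne.symm hne))).1 h1
  -- the third layer
  have h31 : ∀ {j u : A}, j ∈ J ^ 3 → u ∈ J → j * u ∈ J ^ 4 ∧ u * j ∈ J ^ 4 := fun hj hu =>
    ⟨by rw [pow_succ (n := 3)]; exact Submodule.mul_mem_mul hj hu,
     by rw [pow_succ' (n := 3)]; exact Submodule.mul_mem_mul hu hj⟩
  have hassoc : ∀ {u v z : A} {m m' : k}, u ∈ J → v ∈ J → z ∈ J → u * v - m • w ∈ J ^ 3 →
      v * z - m' • w ∈ J ^ 3 → m • (w * z) - m' • (u * w) ∈ J ^ 4 := by
    intro u v z m m' hu hv hz h1 h2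
    have h3 := sub_mem (h31 h2 hu).2 (h31 h1 hz).1
    rw [show u * (v * z - m' • w) - (u * v - m • w) * z = m • (w * z) - m' • (u * w) by
      rw [mul_sub, sub_mul, mul_assoc, smul_mul_assoc, mul_smul_comm]; abel] at h3
    exact h3
  obtain ⟨q, hq⟩ : ∃ q : A, J ^ 3 ≤ span k {q} ⊔ J ^ 4 := by
    -- every right translate of `w` is a multiple of one left translate
    have hstep : ∀ {u v : A} {m : k}, u ∈ J → v ∈ J → u * v - m • w ∈ J ^ 3 → m ≠ 0 →
        ∀ z ∈ J, w * z ∈ span k {u * w} ⊔ J ^ 4 := by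
      intro u v m hu hv h1 hm z hz
      obtain ⟨m', h2⟩ := hM hv hz
      have h3 : m • (w * z) ∈ span k {u * w} ⊔ J ^ 4 := by
        rw [← sub_add_cancel (m • (w * z)) (m' • (u * w))]
        exact add_mem (Submodule.mem_sup_right (hassoc hu hv hz h1 h2))
          (Submodule.mem_sup_left (Submodule.smul_mem _ _ (Submodule.mem_span_singleton_self _)))
      exact (Submodule.smul_mem_iff _ hm).1 h3
    obtain ⟨u, hu, v, hv, m, h1, hm⟩ : ∃ u, u ∈ J ∧ ∃ v, v ∈ J ∧ ∃ m : k,
        u * v - m • w ∈ J ^ 3 ∧ m ≠ 0 := by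
      by_cases hb : b = 0
      · exact ⟨y, hyJ, x, hxJ, c, hyx, fun h => by simp [hb, h] at hbc⟩
      · exact ⟨x, hxJ, y, hyJ, b, hxy, hb⟩
    refine ⟨u * w, ?_⟩
    rw [pow_succ (n := 2)]
    refine Submodule.mul_le.2 fun j hj z hz => ?_
    obtain ⟨j1, hj1, j2, hj2, rfl⟩ := Submodule.mem_sup.1 (hgenW hj)
    obtain ⟨α, rfl⟩ := Submodule.mem_span_singleton.1 hj1
    rw [add_mul, smul_mul_assoc]
    exact add_mem (Submodule.smul_mem _ _ (hstep hu hv h1 hm z hz))
      (Submodule.mem_sup_right (h31 hj2 hz).1)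
  have hq4 : q ∉ J ^ 4 := fun h => by
    have h34 : J ^ 3 ≤ J ^ 4 := hq.trans (sup_le (by rwa [Submodule.span_singleton_le_iff_mem]) le_rfl)
    have hall : ∀ i, J ^ 3 ≤ J ^ (i + 3) := by
      intro i
      induction i with
      | zero => exact le_rfl
      | succ i ih =>
        refine h34.trans ?_
        rw [pow_succ (n := 3), show i + 1 + 3 = i + 3 + 1 by ring, pow_succ (n := i + 3)]
        exact mul_le_mul' ih le_rfl
    exact hJ3 (le_bot_iff.1 ((hall N).trans (by rw [pow_add, hN, Submodule.bot_mul])))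
  have hcoord : ∀ j ∈ J ^ 3, ∃ l : k, j - l • q ∈ J ^ 4 := fun j hj => by
    obtain ⟨j1, hj1, j2, hj2, rfl⟩ := Submodule.mem_sup.1 (hq hj)
    obtain ⟨l, rfl⟩ := Submodule.mem_span_singleton.1 hj1
    exact ⟨l, by rwa [add_sub_cancel_left]⟩
  obtain ⟨l1, hl1⟩ := hcoord _ (h21 hw2 hxJ).2
  obtain ⟨l2, hl2⟩ := hcoord _ (h21 hw2 hyJ).2
  obtain ⟨r1, hr1⟩ := hcoord _ (h21 hw2 hxJ).1
  obtain ⟨r2, hr2⟩ := hcoord _ (h21 hw2 hyJ).1
  have hrel : ∀ {u v z : A} {m m' l r : k}, u ∈ J → v ∈ J → z ∈ J → u * v - m • w ∈ J ^ 3 →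
      v * z - m' • w ∈ J ^ 3 → u * w - l • q ∈ J ^ 4 → w * z - r • q ∈ J ^ 4 →
      m * r = l * m' := by
    intro u v z m m' l r hu hv hz h1 h2 h3 h4
    by_contra hne
    refine hq4 ?_
    have h5 := add_mem (sub_mem (hassoc hu hv hz h1 h2) ((J ^ 4).smul_mem m h4))
      ((J ^ 4).smul_mem m' h3)
    rw [show m • (w * z) - m' • (u * w) - m • (w * z - r • q) + m' • (u * w - l • q) =
      (m * r - l * m') • q by
      simp only [smul_sub, smul_smul, sub_smul, mul_comm m' l]; abel] at h5
    exact (Submodule.smul_mem_iff _ (sub_ne_zero.2 hne)).1 h5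
  have e111 := hrel hxJ hxJ hxJ hxx hxx hl1 hr1
  have e112 := hrel hxJ hxJ hyJ hxx hxy hl1 hr2
  have e121 := hrel hxJ hyJ hxJ hxy hyx hl1 hr1
  have e122 := hrel hxJ hyJ hyJ hxy hyy hl1 hr2
  have e211 := hrel hyJ hxJ hxJ hyx hxx hl2 hr1
  have e212 := hrel hyJ hxJ hyJ hyx hxy hl2 hr2
  have e221 := hrel hyJ hyJ hxJ hyy hyx hl2 hr1
  have e222 := hrel hyJ hyJ hyJ hyy hyy hl2 hr2
  obtain ⟨hr10, hr20⟩ : r1 = 0 ∧ r2 = 0 := by
    have hb : b = c + 1 := by linear_combination hbc
    subst hb
    constructor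
    · by_cases h : r1 = l1
      · subst h; linear_combination e121
      · have ha : a = 0 := by
          by_contra ha
          exact h (mul_left_cancel₀ ha (by linear_combination e111))
        subst ha
        have hl : l1 = -((c + 1) * r1) := by linear_combination e121 - e112
        have hcr : c * r1 = 0 := by linear_combination e211
        by_contra hr
        rcases mul_eq_zero.1 hcr with hc | hc
        · subst hc
          exact hr (by linear_combination e121)
        · exact hr hc
    · by_cases h : r2 = l2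
      · subst h; linear_combination -e212
      · have hd : d = 0 := by
          by_contra hd
          exact h (mul_left_cancel₀ hd (by linear_combination e222))
        subst hd
        have hbr : (c + 1) * r2 = 0 := by linear_combination e122
        by_contra hr
        rcases mul_eq_zero.1 hbr with hc | hc
        · have hc' : c = -1 := by linear_combination hc
          subst hc'
          exact hr (by linear_combination -e212)
        · exact hr hc
  -- the third layer vanishes
  subst hr10 hr20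
  refine hq4 ?_
  have h34 : J ^ 3 ≤ J ^ 4 := by
    conv_lhs => rw [pow_succ (n := 2)]
    refine Submodule.mul_le.2 fun j hj z hz => ?_
    obtain ⟨j1, hj1, j2, hj2, rfl⟩ := Submodule.mem_sup.1 (hgenW hj)
    obtain ⟨α, rfl⟩ := Submodule.mem_span_singleton.1 hj1
    obtain ⟨β, γ, i, hi, rfl⟩ := hdec z hz
    rw [zero_smul, sub_zero] at hr1 hr2
    have hwi : w * i ∈ J ^ 4 := by
      rw [show (4 : ℕ) = 2 + 2 from rfl, pow_add]; exact Submodule.mul_mem_mul hw2 hi
    rw [add_mul, smul_mul_assoc]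
    refine add_mem (Submodule.smul_mem _ _ ?_) (h31 hj2 hz).1
    rw [mul_add, mul_add, mul_smul_comm, mul_smul_comm]
    exact add_mem (add_mem (Submodule.smul_mem _ _ hr1) (Submodule.smul_mem _ _ hr2)) hwi
  exfalso
  have hall : ∀ i, J ^ 3 ≤ J ^ (i + 3) := by
    intro i
    induction i with
    | zero => exact le_rfl
    | succ i ih =>
      refine h34.trans ?_
      rw [pow_succ (n := 3), show i + 1 + 3 = i + 3 + 1 by ring, pow_succ (n := i + 3)]
      exact mul_le_mul' ih le_rfl
  exact hJ3 (le_bot_iff.1 ((hall N).trans (by rw [pow_add, hN, Submodule.bot_mul])))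

end Cfsg.Agent.Lib.LocalBlock
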