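import Cfsg.Agent.Lib.LocalBlock.Units
import Cfsg.Agent.Lib.LocalBlock.Commutative
import Mathlib.Algebra.MonoidAlgebra.Module
import Mathlib.LinearAlgebra.Trace

/-!
# The order of the defect group divides the dimension of the local algebra
-/

set_option autoImplicit false
set_option linter.unusedSectionVars false
set_option linter.style.haveILetI false
set_option maxHeartbeats 1000000

namespace Cfsg.Agent.Lib.LocalBlock

open Cfsg Cfsg.Agent.Lib Cfsg.Agent.Lib.Block Cfsg.Agent.Lib.BrauerPairs Cfsg.Agent.Lib.Star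
open Cfsg.Agent.Lib.CyclicDefect
open scoped ComplexConjugate

universe u v w

/-! ### Corners as algebras -/

section Corner

variable {k : Type v} [CommRing k] {R : Type w} [Ring R] [Algebra k R] {e : R}

theorem corner_mem {he : IsIdempotentElem e} (a : he.Corner) : e * a.1 = a.1 ∧ a.1 * e = a.1 :=
  (Subsemigroup.mem_corner_iff he).1 a.2

/-- An element of the corner. -/
def mkCorner (he : IsIdempotentElem e) (x : R) (h1 : e * x = x) (h2 : x * e = x) : he.Corner :=
  ⟨x, (Subsemigroup.mem_corner_iff he).2 ⟨h1, h2⟩⟩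

/-- Scalars in the corner. -/
noncomputable def cornerScalar (he : IsIdempotentElem e) : k →+* he.Corner where
  toFun c := mkCorner he (c • e) (by rw [mul_smul_comm, he.eq]) (by rw [smul_mul_assoc, he.eq])
  map_one' := Subtype.ext (one_smul k e)
  map_mul' c d := Subtype.ext (by
    show (c * d) • e = c • e * (d • e)
    rw [smul_mul_smul_comm, he.eq])
  map_zero' := Subtype.ext (zero_smul k e)
  map_add' c d := Subtype.ext (add_smul c d e)

/-- The corner is an algebra. -/
noncomputable scoped instance cornerAlgebra (he : IsIdempotentElem e) : Algebra k he.Corner :=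
  RingHom.toAlgebra' (cornerScalar he) fun c a => Subtype.ext (by
    show c • e * a.1 = a.1 * (c • e)
    rw [smul_mul_assoc, mul_smul_comm, (corner_mem a).1, (corner_mem a).2])

theorem coe_smul_corner (he : IsIdempotentElem e) (c : k) (a : he.Corner) :
    (c • a).1 = c • a.1 := by
  show c • e * a.1 = _
  rw [smul_mul_assoc, (corner_mem a).1]

/-- The inclusion of the corner. -/
noncomputable def cornerVal (he : IsIdempotentElem e) : he.Corner →ₗ[k] R where
  toFun a := a.1
  map_add' _ _ := rfl
  map_smul' c a := coe_smul_corner he c a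

end Corner

variable {p : ℕ} {M : Ideal AlgInt} [M.IsPrime] {G : Type u} [Group G] [Finite G]
  {B : Set (IrrCharacter G)}

/-! ### Residual ranks -/

/-- The block algebra. -/
noncomputable def blockSpace (M : Ideal AlgInt) [M.IsPrime] (B : Set (IrrCharacter G)) :
    Submodule (ResField M) (KG M G) :=
  LinearMap.range (LinearMap.mulLeft (ResField M) (toF M (eIdem B) : KG M G))

/-- The sum of the squares of the degrees. -/
noncomputable def degSum (B : Set (IrrCharacter G)) : ℕ :=
  ∑ᶠ χ ∈ B, charDegree (χ : G → ℂ) ^ 2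

theorem degSum_eq_sum [Fintype (IrrCharacter G)] (B : Set (IrrCharacter G))
    [DecidablePred (· ∈ B)] :
    degSum B = ∑ χ ∈ Finset.univ.filter (· ∈ B), charDegree (χ : G → ℂ) ^ 2 := by
  have hB : B = ↑(Finset.univ.filter (· ∈ B)) := by ext χ; simp
  exact (finsum_mem_congr hB fun _ _ => rfl).trans (finsum_mem_coe_finset _ _)

theorem coeff_eIdem_one (B : Set (IrrCharacter G)) :
    (Nat.card G : ℂ) * (eIdem B).coeff 1 = (degSum B : ℂ) := by
  classical
  haveI := Fintype.ofFinite (IrrCharacter G)
  rw [coeff_eIdem, blockCoeff_eq_sum, ← mul_assoc,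
    mul_inv_cancel₀ (Nat.cast_ne_zero.2 Nat.card_pos.ne'), one_mul, degSum_eq_sum,
    ← Finset.sum_filter, Nat.cast_sum]
  refine Finset.sum_congr (by ext ψ; simp) fun χ _ => ?_
  rw [irr_one_eq_natCast, Complex.conj_natCast]
  push_cast
  ring

theorem finrank_range_eIdem (B : Set (IrrCharacter G)) :
    Module.finrank ℂ (LinearMap.range (LinearMap.mulLeft ℂ (eIdem B))) = degSum B := by
  classical
  haveI := Fintype.ofFinite G
  set P := LinearMap.mulLeft ℂ (eIdem B) with hP
  have hproj : LinearMap.IsProj (LinearMap.range P) P :=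
    ⟨fun x => LinearMap.mem_range_self P x, fun x hx => by
      obtain ⟨y, rfl⟩ := hx
      simp only [hP, LinearMap.mulLeft_apply, ← mul_assoc, (isIdempotentElem_eIdem B).eq]⟩
  have h1 := hproj.trace
  rw [LinearMap.trace_eq_matrix_trace ℂ (MonoidAlgebra.basis G ℂ), Matrix.trace] at h1
  have h2 : ∀ g : G, (LinearMap.toMatrix (MonoidAlgebra.basis G ℂ) (MonoidAlgebra.basis G ℂ) P).diag g =
      (eIdem B).coeff 1 := fun g => by
    rw [Matrix.diag_apply, LinearMap.toMatrix_apply, MonoidAlgebra.basis_apply, hP,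
      LinearMap.mulLeft_apply]
    show (eIdem B * MonoidAlgebra.single g (1 : ℂ)).coeff g = _
    rw [MonoidAlgebra.coeff_mul_single_apply, mul_inv_cancel, mul_one]
  rw [Finset.sum_congr rfl fun g _ => h2 g, Finset.sum_const, nsmul_eq_mul, Finset.card_univ,
    ← Nat.card_eq_fintype_card, coeff_eIdem_one] at h1
  exact_mod_cast h1.symm

theorem finrank_blockSpace_le (hR : IntR M (eIdem B)) :
    Module.finrank (ResField M) (blockSpace M B) ≤ degSum B := by
  classical
  haveI := Fintype.ofFinite G
  have hsR : ∀ g : G, IntR M (MonoidAlgebra.single g (1 : ℂ)) := fun g x => by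
    rw [coeff_single_if]
    split_ifs
    · exact one_mem _
    · exact zero_mem _
  set v : G → KG M G := fun g => toF M (eIdem B * MonoidAlgebra.single g (1 : ℂ)) with hv
  have hle : blockSpace M B ≤ Submodule.span (ResField M) (Set.range v) := by
    rintro _ ⟨x, rfl⟩
    rw [LinearMap.mulLeft_apply, eq_sum_single x, Finset.mul_sum]
    refine sum_mem fun g _ => ?_
    rw [show MonoidAlgebra.single g (x.coeff g) =
      x.coeff g • MonoidAlgebra.single g (1 : ResField M) by simp, mul_smul_comm]
    refine Submodule.smul_mem _ _ (Submodule.subset_span ⟨g, ?_⟩)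
    rw [hv]
    dsimp only
    rw [toF_mul hR (hsR g)]
    congr 1
    exact alg_ext fun y => by
      rw [coeff_toF, coeff_single_if, coeff_single_if, apply_ite (redC M), redC_one, redC_zero]
  refine (Submodule.finrank_mono hle).trans ?_
  obtain ⟨t, htv, hspan, htli⟩ := exists_linearIndependent (ResField M) (Set.range v)
  haveI : Fintype t := ((Set.finite_range v).subset htv).fintype
  rw [← hspan, finrank_span_set_eq_card htli, Set.toFinset_card]
  choose g hg using fun w : t => htv w.2
  have hli : LinearIndependent (ResField M)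
      fun w : t => toF M (eIdem B * MonoidAlgebra.single (g w) (1 : ℂ)) := by
    have : (fun w : t => toF M (eIdem B * MonoidAlgebra.single (g w) (1 : ℂ))) =
        fun w : t => (w : KG M G) := funext fun w => hg w
    rw [this]
    exact htli
  have hliC := linearIndependent_of_toF (fun w => hR.mul (hsR (g w))) hli
  let τ' : t → LinearMap.range (LinearMap.mulLeft ℂ (eIdem B)) := fun w =>
    ⟨_, ⟨MonoidAlgebra.single (g w) (1 : ℂ), rfl⟩⟩
  have h' : LinearIndependent ℂ τ' := LinearIndependent.of_comp
    (LinearMap.range (LinearMap.mulLeft ℂ (eIdem B))).subtype hliC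
  exact h'.fintype_card_le_finrank.trans_eq (finrank_range_eIdem B)

theorem eIdem_compl (B : Set (IrrCharacter G)) : eIdem Bᶜ = 1 - eIdem B := by
  classical
  refine eq_of_omega_eq (isClassCoeff_eIdem _) (isClassCoeff_one.sub (isClassCoeff_eIdem B)) fun χ => ?_
  rw [omega_sub, omega_eIdem, omega_eIdem, omega_one (deg_ne_zero χ)]
  by_cases h : χ ∈ B
  · rw [if_neg (fun hc => hc h), if_pos h, sub_self]
  · rw [if_pos (show χ ∈ Bᶜ from h), if_neg h, sub_zero]

theorem finrank_blockSpace (hB : IsPBlock M B) :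
    Module.finrank (ResField M) (blockSpace M B) = degSum B := by
  classical
  haveI := Fintype.ofFinite G
  haveI := Fintype.ofFinite (IrrCharacter G)
  have hR := intR_eIdem hB
  have h1R : IntR M (1 : MonoidAlgebra ℂ G) := fun x => by
    rw [MonoidAlgebra.one_def, coeff_single_if]
    split_ifs
    · exact one_mem _
    · exact zero_mem _
  have hR' : IntR M (eIdem Bᶜ) := by rw [eIdem_compl]; exact h1R.sub hR
  have h1 := finrank_blockSpace_le (M := M) hR
  have h2 := finrank_blockSpace_le (M := M) hR'
  have htop : (⊤ : Submodule (ResField M) (KG M G)) ≤ blockSpace M B ⊔ blockSpace M Bᶜ := by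
    intro x _
    refine Submodule.mem_sup.2 ⟨_, LinearMap.mem_range_self _ x, _, LinearMap.mem_range_self _ x, ?_⟩
    rw [LinearMap.mulLeft_apply, LinearMap.mulLeft_apply, eIdem_compl, toF_sub h1R hR, toF_one,
      ← add_mul, add_sub_cancel, one_mul]
  have h3 := Submodule.finrank_mono htop
  have h4 := Submodule.finrank_add_le_finrank_add_finrank (blockSpace M B) (blockSpace M Bᶜ)
  rw [finrank_top, Module.finrank_eq_card_basis (MonoidAlgebra.basis G (ResField M))] at h3
  have h5 : degSum B + degSum Bᶜ = Fintype.card G := by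
    have hC : (eIdem B).coeff 1 + (eIdem Bᶜ).coeff 1 = 1 := by
      rw [← Finsupp.add_apply, ← MonoidAlgebra.coeff_add, eIdem_compl, add_sub_cancel, MonoidAlgebra.one_def,
        coeff_single_if, if_pos rfl]
    have h6 : (degSum B : ℂ) + (degSum Bᶜ : ℂ) = (Fintype.card G : ℂ) := by
      rw [← coeff_eIdem_one, ← coeff_eIdem_one, ← mul_add, hC, mul_one, Nat.card_eq_fintype_card]
    exact_mod_cast h6
  omega

/-! ### The centre -/

/-- The centre of the block algebra has dimension at most the number of characters. -/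
theorem finrank_center_le (hB : IsPBlock M B) (Z : Submodule (ResField M) (KG M G))
    (hZ : ∀ x ∈ Z, IsClassCoeff x ∧ bar M B * x = x) :
    Module.finrank (ResField M) Z ≤ Nat.card B := by
  classical
  haveI := Fintype.ofFinite G
  haveI := Fintype.ofFinite (IrrCharacter G)
  haveI := Fintype.ofFinite (ConjClasses G)
  have hR := intR_eIdem hB
  have hcR : ∀ g : G, IntR M (classSum ℂ g) := fun g x => by
    rw [coeff_classSum]
    split_ifs
    · exact one_mem _
    · exact zero_mem _
  have hcK : ∀ g : G, toF M (classSum ℂ g) = classSum (ResField M) g := fun g => alg_ext fun x => by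
    rw [coeff_toF, coeff_classSum, coeff_classSum, apply_ite (redC M), redC_one, redC_zero]
  set v : ConjClasses G → KG M G := fun C => toF M (eIdem B * classSum ℂ C.out) with hv
  have hle : Z ≤ Submodule.span (ResField M) (Set.range v) := by
    intro x hx
    obtain ⟨hxc, hxb⟩ := hZ x hx
    have hx' : x = ∑ C : ConjClasses G, x.coeff C.out • classSum (ResField M) C.out := by
      refine alg_ext fun y => ?_
      rw [coeff_sum_apply, Finset.sum_eq_single (ConjClasses.mk y)]
      · have hc : IsConj (ConjClasses.mk y).out y :=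
          ConjClasses.mk_eq_mk_iff_isConj.1 (Quotient.out_eq _)
        rw [MonoidAlgebra.coeff_smul_apply, coeff_classSum, if_pos hc, smul_eq_mul, mul_one]
        obtain ⟨c, hc⟩ := isConj_iff.1 hc
        exact (congrArg (fun t => x.coeff t) hc).symm.trans (hxc c _)
      · intro C _ hC
        rw [MonoidAlgebra.coeff_smul_apply, coeff_classSum, if_neg, smul_zero]
        intro hc
        exact hC ((Quotient.out_eq C).symm.trans (ConjClasses.mk_eq_mk_iff_isConj.2 hc))
      · intro h; exact absurd (Finset.mem_univ _) h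
    rw [← hxb, hx', Finset.mul_sum]
    refine sum_mem fun C _ => ?_
    rw [mul_smul_comm]
    refine Submodule.smul_mem _ _ (Submodule.subset_span ⟨C, ?_⟩)
    rw [hv]
    dsimp only
    rw [toF_mul hR (hcR _), hcK]
    rfl
  refine (Submodule.finrank_mono hle).trans ?_
  obtain ⟨t, htv, hspan, htli⟩ := exists_linearIndependent (ResField M) (Set.range v)
  haveI : Fintype t := ((Set.finite_range v).subset htv).fintype
  rw [← hspan, finrank_span_set_eq_card htli, Set.toFinset_card]
  choose g hg using fun w : t => htv w.2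
  have hli : LinearIndependent (ResField M)
      fun w : t => toF M (eIdem B * classSum ℂ (g w).out) := by
    have : (fun w : t => toF M (eIdem B * classSum ℂ (g w).out)) =
        fun w : t => (w : KG M G) := funext fun w => hg w
    rw [this]
    exact htli
  have hliC := linearIndependent_of_toF (fun w => hR.mul (hcR (g w).out)) hli
  let E : B → MonoidAlgebra ℂ G := fun χ => eIdem ({χ.1} : Set (IrrCharacter G))
  have hmem : ∀ C : ConjClasses G, eIdem B * classSum ℂ C.out ∈ Submodule.span ℂ (Set.range E) := by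
    intro C
    have hcs : IsClassCoeff (classSum ℂ C.out) := isClassCoeff_classSum _
    rw [show eIdem B * classSum ℂ C.out =
      ∑ χ : B, omega (χ.1 : G → ℂ) (classSum ℂ C.out) • E χ from ?_]
    · exact sum_mem fun χ _ => Submodule.smul_mem _ _ (Submodule.subset_span ⟨χ, rfl⟩)
    refine eq_of_omega_eq ((isClassCoeff_eIdem B).mul hcs) ?_ fun ψ => ?_
    · intro a y
      simp only [coeff_sum_apply, MonoidAlgebra.coeff_smul_apply, E]
      exact Finset.sum_congr rfl fun χ _ => by rw [isClassCoeff_eIdem _ a y]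
    · rw [omega_mul ψ (isClassCoeff_eIdem B), omega_eIdem, omega_sum]
      simp only [omega_smul, E, omega_eIdem, Set.mem_singleton_iff]
      by_cases hψ : ψ ∈ B
      · rw [if_pos hψ, one_mul, Finset.sum_eq_single ⟨ψ, hψ⟩]
        · simp
        · intro χ _ hχ
          rw [if_neg fun h => hχ (Subtype.ext h.symm), mul_zero]
        · intro h; exact absurd (Finset.mem_univ _) h
      · rw [if_neg hψ, zero_mul]
        refine (Finset.sum_eq_zero fun χ _ => ?_).symm
        have hne : ψ ≠ χ.1 := fun h => hψ (h ▸ χ.2)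
        rw [if_neg hne, mul_zero]
  let τ' : t → Submodule.span ℂ (Set.range E) := fun w => ⟨_, hmem (g w)⟩
  have h' : LinearIndependent ℂ τ' := LinearIndependent.of_comp
    (Submodule.span ℂ (Set.range E)).subtype hliC
  refine h'.fintype_card_le_finrank.trans ?_
  rw [Nat.card_eq_fintype_card]
  exact finrank_range_le_card E

namespace Units

variable (U : Units (p := p) M B)

theorem bar_comm (x : KG M G) : bar M B * x = x * bar M B :=
  ((isClassCoeff_bar B).commute x).eq

theorem Y_bar (j : Fin U.n) : U.Y j * bar M B = U.Y j := by rw [← bar_comm, U.bar_Y]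

theorem i0_bar : U.i0 * bar M B = U.i0 := by rw [← bar_comm, U.bar_i0]

theorem Y_X_mem (x : KG M G) (i j : Fin U.n) :
    U.i0 * (U.Y i * x * U.X j) = U.Y i * x * U.X j ∧
      (U.Y i * x * U.X j) * U.i0 = U.Y i * x * U.X j :=
  ⟨by simp only [← mul_assoc, U.i0_Y], by simp only [mul_assoc, U.X_i0]⟩

/-- The local algebra. -/
abbrev A : Type _ := U.idem.Corner

theorem finite_A : FiniteDimensional (ResField M) U.A := by
  haveI := Fintype.ofFinite G
  exact Module.Finite.of_injective (cornerVal (k := ResField M) U.idem) Subtype.val_injective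

/-- The block algebra is a matrix algebra over the local algebra. -/
theorem finrank_blockSpace_eq (hB : IsPBlock M B) :
    Module.finrank (ResField M) (blockSpace M B) =
      U.n ^ 2 * Module.finrank (ResField M) U.A := by
  haveI := U.finite_A
  let f : (Fin U.n × Fin U.n → U.A) →ₗ[ResField M] KG M G :=
    { toFun := fun a => ∑ i, ∑ j, U.X i * (a (i, j)).1 * U.Y j
      map_add' := fun a b => by
        simp only [← Finset.sum_add_distrib]
        refine Finset.sum_congr rfl fun i _ => Finset.sum_congr rfl fun j _ => ?_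
        rw [Pi.add_apply, show (a (i, j) + b (i, j)).1 = (a (i, j)).1 + (b (i, j)).1 from rfl,
          mul_add, add_mul]
      map_smul' := fun c a => by
        simp only [RingHom.id_apply, Finset.smul_sum]
        refine Finset.sum_congr rfl fun i _ => Finset.sum_congr rfl fun j _ => ?_
        rw [Pi.smul_apply, coe_smul_corner, mul_smul_comm, smul_mul_assoc] }
  have hinv : ∀ a i j, U.Y i * f a * U.X j = (a (i, j)).1 := by
    intro a i j
    show U.Y i * (∑ l, ∑ m, U.X l * (a (l, m)).1 * U.Y m) * U.X j = _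
    rw [Finset.mul_sum, Finset.sum_mul, Finset.sum_eq_single i]
    · rw [Finset.mul_sum, Finset.sum_mul, Finset.sum_eq_single j]
      · rw [show U.Y i * (U.X i * (a (i, j)).1 * U.Y j) * U.X j =
          (U.Y i * U.X i) * (a (i, j)).1 * (U.Y j * U.X j) by simp only [mul_assoc], U.orth, U.orth,
          if_pos rfl, if_pos rfl, (corner_mem (a (i, j))).1, (corner_mem (a (i, j))).2]
      · intro m _ hm
        rw [show U.Y i * (U.X i * (a (i, m)).1 * U.Y m) * U.X j =
          (U.Y i * U.X i) * (a (i, m)).1 * (U.Y m * U.X j) by simp only [mul_assoc], U.orth m j,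
          if_neg hm, mul_zero]
      · intro h; exact absurd (Finset.mem_univ _) h
    · intro l _ hl
      rw [Finset.mul_sum, Finset.sum_mul]
      refine Finset.sum_eq_zero fun m _ => ?_
      rw [show U.Y i * (U.X l * (a (l, m)).1 * U.Y m) * U.X j =
        (U.Y i * U.X l) * (a (l, m)).1 * (U.Y m * U.X j) by simp only [mul_assoc], U.orth i l,
        if_neg (Ne.symm hl), zero_mul, zero_mul]
    · intro h; exact absurd (Finset.mem_univ _) h
  have hf : Function.Injective f := fun a b h => funext fun ij => Subtype.ext (by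
    rw [← hinv a ij.1 ij.2, h, hinv b ij.1 ij.2])
  have hrange : LinearMap.range f = blockSpace M B := by
    refine le_antisymm ?_ ?_
    · rintro _ ⟨a, rfl⟩
      refine ⟨f a, ?_⟩
      show bar M B * (∑ i, ∑ j, U.X i * (a (i, j)).1 * U.Y j) = _
      rw [Finset.mul_sum]
      refine Finset.sum_congr rfl fun i _ => ?_
      rw [Finset.mul_sum]
      exact Finset.sum_congr rfl fun j _ => by rw [← mul_assoc, ← mul_assoc, U.bar_X]
    · rintro _ ⟨x, rfl⟩
      refine ⟨fun ij => mkCorner U.idem _ (U.Y_X_mem x ij.1 ij.2).1 (U.Y_X_mem x ij.1 ij.2).2, ?_⟩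
      show ∑ i, ∑ j, U.X i * (U.Y i * x * U.X j) * U.Y j = bar M B * x
      rw [Finset.sum_congr rfl fun i _ => Finset.sum_congr rfl fun j _ => show
        U.X i * (U.Y i * x * U.X j) * U.Y j = (U.X i * U.Y i) * x * (U.X j * U.Y j) by
          simp only [mul_assoc]]
      simp only [← Finset.mul_sum, ← Finset.sum_mul, U.sum]
      rw [mul_assoc, ← bar_comm x, ← mul_assoc, (isIdempotentElem_bar hB).eq]
  rw [← hrange, LinearMap.finrank_range_of_inj hf, Module.finrank_pi_fintype, Finset.sum_const,
    Finset.card_univ, Fintype.card_prod, Fintype.card_fin, smul_eq_mul, sq]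

/-- The centre of the local algebra is at most as large as the block. -/
theorem finrank_center_A_le (hB : IsPBlock M B) :
    Module.finrank (ResField M) (Subalgebra.center (ResField M) U.A) ≤ Nat.card B := by
  haveI := U.finite_A
  haveI := Fintype.ofFinite G
  let Φ : Subalgebra.center (ResField M) U.A →ₗ[ResField M] KG M G :=
    { toFun := fun z => ∑ j, U.X j * (z.1).1 * U.Y j
      map_add' := fun a b => by
        rw [← Finset.sum_add_distrib]
        refine Finset.sum_congr rfl fun j _ => ?_
        show U.X j * ((a.1).1 + (b.1).1) * U.Y j = _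
        rw [mul_add, add_mul]
      map_smul' := fun c a => by
        rw [RingHom.id_apply, Finset.smul_sum]
        refine Finset.sum_congr rfl fun j _ => ?_
        show U.X j * ((c • a.1 : U.A)).1 * U.Y j = _
        rw [coe_smul_corner, mul_smul_comm, smul_mul_assoc] }
  have hΦ : Function.Injective Φ := by
    intro a b h
    refine Subtype.ext (Subtype.ext ?_)
    let o : Fin U.n := ⟨0, U.n_pos⟩
    have key : ∀ z : Subalgebra.center (ResField M) U.A, U.Y o * Φ z * U.X o = (z.1).1 := fun z => by
      show U.Y o * (∑ j, U.X j * (z.1).1 * U.Y j) * U.X o = _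
      rw [Finset.mul_sum, Finset.sum_mul, Finset.sum_eq_single o]
      · rw [show U.Y o * (U.X o * (z.1).1 * U.Y o) * U.X o =
          (U.Y o * U.X o) * (z.1).1 * (U.Y o * U.X o) by simp only [mul_assoc], U.orth, if_pos rfl,
          (corner_mem z.1).1, (corner_mem z.1).2]
      · intro j _ hj
        rw [show U.Y o * (U.X j * (z.1).1 * U.Y j) * U.X o =
          (U.Y o * U.X j) * (z.1).1 * (U.Y j * U.X o) by simp only [mul_assoc], U.orth o j,
          if_neg (Ne.symm hj), zero_mul, zero_mul]
      · intro h; exact absurd (Finset.mem_univ _) h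
    rw [← key a, h, key b]
  rw [← LinearMap.finrank_range_of_inj hΦ]
  refine finrank_center_le hB _ ?_
  rintro _ ⟨z, rfl⟩
  have hbΦ : bar M B * Φ z = Φ z := by
    show bar M B * (∑ j, U.X j * (z.1).1 * U.Y j) = _
    rw [Finset.mul_sum]
    exact Finset.sum_congr rfl fun j _ => by rw [← mul_assoc, ← mul_assoc, U.bar_X]
  refine ⟨?_, hbΦ⟩
  have hcomm : ∀ x : KG M G, Commute x (Φ z) := by
    intro x
    have hz : ∀ i j, (U.Y i * x * U.X j) * (z.1).1 = (z.1).1 * (U.Y i * x * U.X j) := fun i j =>
      congrArg Subtype.val (Subalgebra.mem_center_iff.1 z.2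
        (mkCorner U.idem _ (U.Y_X_mem x i j).1 (U.Y_X_mem x i j).2))
    have h1 : x * Φ z = ∑ i, ∑ j, U.X i * ((U.Y i * x * U.X j) * (z.1).1) * U.Y j := by
      calc x * Φ z = (∑ i, U.X i * U.Y i) * (x * Φ z) := by
            rw [U.sum, ← mul_assoc, bar_comm, mul_assoc, hbΦ]
        _ = _ := by
            show (∑ i, U.X i * U.Y i) * (x * ∑ j, U.X j * (z.1).1 * U.Y j) = _
            simp only [Finset.sum_mul, Finset.mul_sum, mul_assoc]
            rw [Finset.sum_comm]
    have h2 : Φ z * x = ∑ i, ∑ j, U.X i * ((z.1).1 * (U.Y i * x * U.X j)) * U.Y j := by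
      calc Φ z * x = (Φ z * x) * (∑ j, U.X j * U.Y j) := by
            rw [U.sum, mul_assoc, ← bar_comm, ← mul_assoc, ← bar_comm, hbΦ]
        _ = _ := by
            show (∑ i, U.X i * (z.1).1 * U.Y i) * x * (∑ j, U.X j * U.Y j) = _
            simp only [Finset.sum_mul, Finset.mul_sum, mul_assoc]
            rw [Finset.sum_comm]
    show x * Φ z = Φ z * x
    rw [h1, h2]
    simp only [hz]
  exact isClassCoeff_iff_cj.2 fun u => invUnder_iff_cj.1 (invUnder_iff_commute.2 (hcomm _))

/-- A local algebra with small centre is commutative, hence no larger than the block. -/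
theorem finrank_A_le (hB : IsPBlock M B) (hk : Nat.card B ≤ 4) :
    Module.finrank (ResField M) U.A ≤ Nat.card B := by
  classical
  haveI := U.finite_A
  haveI := Fintype.ofFinite G
  let t : U.A →ₗ[ResField M] ResField M :=
    { toFun := fun a => (a.1).coeff 1
      map_add' := fun a b => by
        show (a.1 + b.1).coeff 1 = _
        rw [MonoidAlgebra.coeff_add, Finsupp.add_apply]
      map_smul' := fun c a => by
        show (c • a).1.coeff 1 = _
        rw [coe_smul_corner, MonoidAlgebra.coeff_smul_apply]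
        rfl }
  have hswap : ∀ a b : KG M G, (a * b).coeff 1 = (b * a).coeff 1 := fun a b => by
    rw [coeff_mul_eq_sum, coeff_mul_eq_sum']
    exact Finset.sum_congr rfl fun y _ => by rw [mul_one, one_mul, mul_comm]
  have hcomm := commutative_of_small (k := ResField M) (A := U.A) (fun a => by
      obtain ⟨c, n, hn⟩ := U.local_corner a.1
      refine ⟨c, n + 1, Subtype.ext ?_⟩
      have hval : ∀ (x : U.A) (m : ℕ), (x ^ (m + 1)).1 = x.1 ^ (m + 1) := fun x m => by
        induction m with
        | zero => simp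
        | succ m ih =>
          rw [pow_succ x, pow_succ x.1]
          show (x ^ (m + 1)).1 * x.1 = _
          rw [ih]
      rw [hval]
      show (a.1 - c • U.i0) ^ (n + 1) = 0
      rw [(corner_mem a).1, (corner_mem a).2] at hn
      rw [pow_succ, hn, zero_mul])
    t (fun a b => hswap a.1 b.1) (fun a ha => Subtype.ext (alg_ext fun g => by
      show a.1.coeff g = (0 : KG M G).coeff g
      have hy : U.i0 * MonoidAlgebra.single g⁻¹ 1 * U.i0 * U.i0 =
          U.i0 * MonoidAlgebra.single g⁻¹ (1 : ResField M) * U.i0 := by rw [mul_assoc, U.idem.eq]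
      have h := ha (mkCorner U.idem (U.i0 * MonoidAlgebra.single g⁻¹ 1 * U.i0)
        (by simp only [← mul_assoc, U.idem.eq]) hy)
      change (a.1 * (U.i0 * MonoidAlgebra.single g⁻¹ 1 * U.i0)).coeff 1 = 0 at h
      rw [← mul_assoc, hswap, ← mul_assoc, ← mul_assoc, (corner_mem a).1, (corner_mem a).2,
        MonoidAlgebra.coeff_mul_single_apply, inv_inv, one_mul, mul_one] at h
      rw [h]
      rfl))
    ((U.finrank_center_A_le hB).trans hk)
  have htop : (Subalgebra.center (ResField M) U.A) = ⊤ :=
    eq_top_iff.2 fun a _ => Subalgebra.mem_center_iff.2 fun b => (hcomm a b).symm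
  refine le_trans ?_ (U.finrank_center_A_le hB)
  rw [htop, ← Subalgebra.finrank_toSubmodule, Algebra.top_toSubmodule, finrank_top]

theorem finrank_A_pos : 0 < Module.finrank (ResField M) U.A := by
  haveI := U.finite_A
  haveI : Nontrivial U.A := ⟨⟨1, 0, fun h => U.ne_zero (congrArg Subtype.val h)⟩⟩
  exact Module.finrank_pos

/-- Idempotents linked over the residue field have linked lifts. -/
theorem exists_swap {i f X Y : KG M G} (hi : IsIdempotentElem i) (hf : IsIdempotentElem f)
    (hYX : Y * X = i) (hXY : X * Y = f) (hY : i * Y = Y) (hX : X * i = X) :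
    ∃ a b : RG M G, IsIdempotentElem (a * b) ∧ IsIdempotentElem (b * a) ∧
      toK (a * b) = f ∧ toK (b * a) = i := by
  classical
  haveI := Fintype.ofFinite G
  obtain ⟨L, hL, hLK, -, -, -⟩ := exists_lift (F := (1 : RG M G)) IsIdempotentElem.one hi
    (by rw [map_one, one_mul]) (by rw [map_one, mul_one])
  obtain ⟨F, hF, hFK, -, -, -⟩ := exists_lift (F := (1 : RG M G)) IsIdempotentElem.one hf
    (by rw [map_one, one_mul]) (by rw [map_one, mul_one])
  have hto : ∀ x : KG M G, ∃ y : RG M G, toK y = x := fun x =>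
    ⟨ofFun fun g => ⟨liftC M (x.coeff g), liftC_mem _⟩, alg_ext fun g => by
      rw [coeff_toK, coeff_ofFun, ← redC_coe, redC_liftC]⟩
  obtain ⟨a, ha⟩ := hto X
  obtain ⟨b, hb⟩ := hto Y
  obtain ⟨w, hw⟩ : ∃ w, w = L * b * F * a * L := ⟨_, rfl⟩
  have hYf : Y * f * X = i := by rw [← hXY, ← mul_assoc Y, hYX, mul_assoc, hYX, hi.eq]
  have hwK : toK w = i := by
    rw [hw, map_mul, map_mul, map_mul, map_mul, hLK, hFK, ha, hb, hY, hYf, hi.eq]
  obtain ⟨E, z, m, hE, hEwz, hnil, hcomm⟩ := exists_split (toK : RG M G →+* _)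
    (M := M) (fun r hr => by
      rw [Algebra.algebraMap_eq_smul_one]
      refine alg_ext fun x => ?_
      rw [coeff_toK, MonoidAlgebra.coeff_smul_apply]
      simp [hr, map_mul]) w
  have hLw : L * w = w := by rw [hw]; simp only [← mul_assoc, hL.eq]
  have hwL : w * L = w := by rw [hw]; simp only [mul_assoc, hL.eq]
  obtain ⟨hLE, hLz⟩ := hcomm L (show L * w = w * L by rw [hLw, hwL])
  obtain ⟨hwE, hwz⟩ := hcomm w (Commute.refl w)
  have hzE : Commute z E := (hcomm z hwz.symm).1
  have hEL : E * L = E := by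
    calc E * L = E * (w * z) * L := by rw [hEwz]
      _ = E * ((w * L) * z) := by rw [mul_assoc, mul_assoc w z, ← hLz.eq, ← mul_assoc w]
      _ = E := by rw [hwL, hEwz]
  have hKE : toK E = i := by
    have h2 : i * toK E = toK E := by rw [← hLK, ← map_mul, hLE.eq, hEL]
    have h3 : i * toK (1 - E) = 0 := by
      rw [hwK] at hnil
      rcases m with _ | m
      · rw [pow_zero, one_mul] at hnil
        rw [hnil, mul_zero]
      · rwa [hi.pow_succ_eq] at hnil
    rw [map_sub, map_one, mul_sub, mul_one, h2, sub_eq_zero] at h3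
    exact h3.symm
  have hzi : i * toK z = i := by
    have h1 := congrArg (toK : RG M G →+* _) hEwz
    rwa [map_mul, map_mul, hKE, hwK, ← mul_assoc, hi.eq] at h1
  have hba : z * E * L * b * F * (F * a * L * E) = E := by
    calc z * E * L * b * F * (F * a * L * E) = z * E * (L * b * (F * F) * a * L) * E := by
          simp only [mul_assoc]
      _ = z * E * w * E := by rw [hF.eq, hw]
      _ = E := by
          rw [mul_assoc z E w, ← hwE.eq, ← mul_assoc, mul_assoc (z * w), hE.eq, ← hwz.eq,
            (hwE.mul_left hzE).eq, hEwz]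
  refine ⟨F * a * L * E, z * E * L * b * F, ?_, by rw [hba]; exact hE, ?_, by rw [hba, hKE]⟩
  · show F * a * L * E * (z * E * L * b * F) * (F * a * L * E * (z * E * L * b * F)) = _
    rw [mul_assoc (F * a * L * E), ← mul_assoc (z * E * L * b * F), hba, ← mul_assoc (F * a * L * E),
      mul_assoc (F * a * L) E E, hE.eq]
  · have hzc : i * toK z = toK z * i := by rw [← hLK, ← map_mul, ← map_mul, hLz.eq]
    have h1 : toK (F * a * L * E) = X := by
      rw [map_mul, map_mul, map_mul, hFK, ha, hLK, hKE, ← hXY, mul_assoc X Y X, hYX, hX, hX, hX]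
    have h2 : toK (z * E * L * b * F) = Y := by
      rw [map_mul, map_mul, map_mul, map_mul, hKE, hLK, hb, hFK, mul_assoc (toK z) i i, hi.eq,
        ← hzc, hzi, hY, ← hXY, ← mul_assoc, hYX, hY]
    rw [map_mul, h1, h2, hXY]

/-- The rank divides every degree. -/
theorem n_dvd_charDegree (hM : IsPModular p M) (hB : IsPBlock M B) {χ : IrrCharacter G}
    (hχ : χ ∈ B) : U.n ∣ charDegree (χ : G → ℂ) := by
  classical
  haveI := Fintype.ofFinite G
  haveI : Fact p.Prime := ⟨hM.1⟩
  set φ : G → ℂ := (χ : G → ℂ) with hφ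
  have hφc : IsClassFunction G φ := Char.isClassFunction_of_isIrr χ.2
  have hu1 : IsPElem p (1 : G) := ⟨0, by rw [orderOf_one, pow_zero]⟩
  have hbr : ∀ ι : KG M G, br (Subgroup.zpowers (1 : G)) ι = ι := fun ι => alg_ext fun x =>
    coeff_br_of_mem _ (mem_centralizer_zpowers.2 (Commute.one_left x))
  have hone : ∀ X : RG M G, Commute (MonoidAlgebra.single (1 : G) (1 : locRing M)) X := fun X => by
    rw [← MonoidAlgebra.one_def]; exact Commute.one_left X
  obtain ⟨L, hL, hLK, -, -, -⟩ := exists_lift (F := (1 : RG M G)) IsIdempotentElem.one U.idem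
    (by rw [map_one, one_mul]) (by rw [map_one, mul_one])
  have hθ : ∀ {X : RG M G}, IsIdempotentElem X →
      theta M φ 1 (toK X) = pair φ (toC X) := fun {X} hX => by
    rw [theta_eq hM hu1 hφc hX (hone X) (hbr _), ← MonoidAlgebra.one_def, mul_one]
  -- the value on the local idempotent is a natural number
  obtain ⟨d, hd⟩ : ∃ d : ℕ, pair φ (toC L) = (d : ℂ) := by
    have hE : IsIdempotentElem (toC L) := hL.map (toC : RG M G →+* _)
    have hch := isCharacter_pair_idem (Char.isCharacter_of_isIrr χ.2) (⊥ : Subgroup G) hE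
      fun u hu => by rw [Subgroup.mem_bot.1 hu, ← MonoidAlgebra.one_def]; exact Commute.one_left _
    have h1 := Char.apply_one_eq_charDegree hch
    beta_reduce at h1
    rw [OneMemClass.coe_one, ← MonoidAlgebra.one_def, mul_one] at h1
    exact ⟨_, h1⟩
  -- conjugate idempotents have the same value
  have hf : ∀ j, theta M φ 1 (U.X j * U.Y j) = (d : ℂ) := by
    intro j
    have hYX : U.Y j * U.X j = U.i0 := by rw [U.orth, if_pos rfl]
    have hfi : IsIdempotentElem (U.X j * U.Y j) := by
      show U.X j * U.Y j * (U.X j * U.Y j) = _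
      rw [mul_assoc, ← mul_assoc (U.Y j), hYX, U.i0_Y]
    obtain ⟨a, b, hab, hba, habK, hbaK⟩ := exists_swap U.idem hfi hYX rfl (U.i0_Y j) (U.X_i0 j)
    rw [← habK, hθ hab, map_mul, pair_mul_comm hφc, ← map_mul, ← hθ hba, hbaK, ← hLK, hθ hL, hd]
  -- sum up
  have hsum : ∀ s : Finset (Fin U.n), theta M φ 1 (∑ j ∈ s, U.X j * U.Y j) = (s.card : ℂ) * d ∧
      IsIdempotentElem (∑ j ∈ s, U.X j * U.Y j) := by
    intro s
    induction s using Finset.induction_on with
    | empty => exact ⟨by rw [Finset.sum_empty, theta_zero hM hu1 hφc, Finset.card_empty,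
        Nat.cast_zero, zero_mul], by simp [IsIdempotentElem]⟩
    | insert j s hj ih =>
      rw [Finset.sum_insert hj, Finset.card_insert_of_notMem hj]
      have hfi : IsIdempotentElem (U.X j * U.Y j) := by
        show U.X j * U.Y j * (U.X j * U.Y j) = _
        rw [mul_assoc, ← mul_assoc (U.Y j), U.orth, if_pos rfl, U.i0_Y]
      have h1 : U.X j * U.Y j * ∑ i ∈ s, U.X i * U.Y i = 0 := by
        rw [Finset.mul_sum]
        refine Finset.sum_eq_zero fun i hi => ?_
        rw [mul_assoc, ← mul_assoc (U.Y j), U.orth, if_neg (fun h : j = i => hj (h ▸ hi)), zero_mul,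
          mul_zero]
      have h2 : (∑ i ∈ s, U.X i * U.Y i) * (U.X j * U.Y j) = 0 := by
        rw [Finset.sum_mul]
        refine Finset.sum_eq_zero fun i hi => ?_
        rw [mul_assoc, ← mul_assoc (U.Y i), U.orth, if_neg (fun h : i = j => hj (h ▸ hi)), zero_mul,
          mul_zero]
      refine ⟨?_, ?_⟩
      · rw [theta_add hM hu1 hφc hfi ih.2 h1 h2 (cj_one_apply _) (cj_one_apply _) (hbr _) (hbr _),
          hf, ih.1]
        push_cast
        ring
      · show _ * _ = _
        rw [add_mul, mul_add, mul_add, hfi.eq, h1, h2, ih.2.eq, add_zero, zero_add]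
  have hall := (hsum Finset.univ).1
  rw [U.sum, Finset.card_univ, Fintype.card_fin] at hall
  obtain ⟨X, hX⟩ := exists_toC (intR_eIdem hB)
  have hXi : IsIdempotentElem X := toC_injective (by
    rw [map_mul, hX]; exact (isIdempotentElem_eIdem B).eq)
  have hXK : toK X = bar M B := by rw [← toF_toC, hX]; rfl
  rw [← hXK, hθ hXi, hX] at hall
  have hω := omega_eIdem (S := B) χ
  rw [if_pos hχ, omega, div_eq_one_iff_eq (deg_ne_zero χ)] at hω
  rw [hω, irr_one_eq_natCast] at hall
  exact ⟨d, by exact_mod_cast hall⟩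

include U in
/-- The block formula for a block of rank one. -/
theorem pow_dvd_degSum (hM : IsPModular p M) (hB : IsPBlock M B) (hl : blockRank p B = 1) :
    p ^ (2 * (Nat.card G).factorization p - blockDefect p B) ∣ degSum B := by
  classical
  haveI : Fact p.Prime := ⟨hM.1⟩
  haveI := Fintype.ofFinite G
  haveI := Fintype.ofFinite (IrrCharacter G)
  obtain ⟨χ₀, hχ₀, h0⟩ := exists_height_zero hB p
  set c₀ := charDegree (χ₀ : G → ℂ) with hc₀
  have hc₀0 : c₀ ≠ 0 := (charDegree_pos χ₀).ne'
  have hC : (c₀ : ℂ) ≠ 0 := Nat.cast_ne_zero.2 hc₀0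
  -- proportional at regular elements
  set V := Submodule.span ℂ ((fun χ : IrrCharacter G => pRegularPart p (χ : G → ℂ)) '' B) with hV
  have hprop : ∀ χ ∈ B, ∀ g : G, ¬ p ∣ orderOf g →
      (χ : G → ℂ) g = (charDegree (χ : G → ℂ) : ℂ) / c₀ * (χ₀ : G → ℂ) g := by
    intro χ hχ g hg
    have h1 : pRegularPart p (χ₀ : G → ℂ) ∈ V := Submodule.subset_span ⟨χ₀, hχ₀, rfl⟩
    have h2 : pRegularPart p (χ : G → ℂ) ∈ V := Submodule.subset_span ⟨χ, hχ, rfl⟩
    have hne : (⟨_, h1⟩ : V) ≠ 0 := fun h0 => by
      have := congrFun (congrArg Subtype.val h0) 1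
      simp only [pRegularPart_apply, if_neg (regular_one (p := p) (G := G)), irr_one_eq_natCast] at this
      exact hC this
    obtain ⟨r, hr⟩ := (finrank_eq_one_iff_of_nonzero' (⟨_, h1⟩ : V) hne).1 hl ⟨_, h2⟩
    have hr' := congrArg Subtype.val hr
    have e1 := congrFun hr' 1
    have e2 := congrFun hr' g
    simp only [Submodule.coe_smul, Pi.smul_apply, pRegularPart_apply, smul_eq_mul,
      if_neg (regular_one (p := p) (G := G)), if_neg hg, irr_one_eq_natCast] at e1 e2
    rw [← e2, ← e1, mul_div_assoc, div_self hC, mul_one]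
  -- a unit value
  obtain ⟨h, hh, χ, hχ, hne⟩ := U.red_ne
  have hh' : redC M ((χ₀ : G → ℂ) h) ≠ 0 := by
    intro hz
    refine hne ?_
    have hr : ((charDegree (χ : G → ℂ) : ℂ) / c₀) ∈ locRing M :=
      (natDiv_aux hM (charDegree_pos χ).ne' hc₀0 (le_of_height_zero h0 hχ)).1
    show redC M ((χ : G → ℂ) h) = 0
    rw [hprop χ hχ h hh, redC_mul hr (irr_mem_locRing χ₀ h), hz, mul_zero]
  -- the coefficient at the inverse
  have hcoef : blockCoeff B h⁻¹ =
      (degSum B : ℂ) / ((Nat.card G : ℂ) * c₀) * (χ₀ : G → ℂ) h := by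
    rw [blockCoeff_eq_sum, degSum_eq_sum, Nat.cast_sum, Finset.sum_div, Finset.sum_mul,
      ← Finset.sum_filter, Finset.mul_sum]
    refine Finset.sum_congr (by ext ψ; simp) fun ψ hψ => ?_
    rw [Char.char_inv (Char.isCharacter_of_isIrr ψ.2), Complex.conj_conj,
      hprop ψ (Finset.mem_filter.1 hψ).2 h hh, irr_one_eq_natCast]
    push_cast
    field_simp
  have hmemR : blockCoeff B h⁻¹ ∈ locRing M := by
    have := intR_eIdem hB h⁻¹
    rwa [coeff_eIdem] at this
  set c : ℂ := (degSum B : ℂ) / ((Nat.card G : ℂ) * c₀) with hcdef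
  have hu : (⟨_, irr_mem_locRing χ₀ h⟩ : locRing M) ∉ locIdeal M := fun hm => hh' (by
    rw [show (χ₀ : G → ℂ) h = ((⟨_, irr_mem_locRing χ₀ h⟩ : locRing M) : ℂ) from rfl, redC_coe]
    exact Ideal.Quotient.eq_zero_iff_mem.2 hm)
  obtain ⟨v, hv⟩ := isUnit_of_notMem_locIdeal hu
  have hcR : c ∈ locRing M := by
    have h1 : c = blockCoeff B h⁻¹ * ((v⁻¹ : (locRing M)ˣ) : locRing M).1 := by
      have h2 : (χ₀ : G → ℂ) h * ((v⁻¹ : (locRing M)ˣ) : locRing M).1 = 1 := by
        have := congrArg Subtype.val v.mul_inv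
        rwa [hv] at this
      rw [hcoef, mul_assoc, h2, mul_one]
    rw [h1]
    exact mul_mem hmemR (Subtype.coe_prop _)
  obtain ⟨i, m, hm, hN⟩ := Nat.exists_eq_pow_mul_and_not_dvd
    (mul_ne_zero (Nat.card_pos (α := G)).ne' hc₀0) p hM.1.ne_one
  have hi : i = (Nat.card G).factorization p + c₀.factorization p := by
    have h1 := congrArg (fun x : ℕ => x.factorization p) hN
    simp only [Nat.factorization_mul (Nat.card_pos (α := G)).ne' hc₀0, Finsupp.add_apply] at h1
    rw [Nat.factorization_mul (pow_ne_zero i hM.1.ne_zero) (by rintro rfl; exact hm (dvd_zero p)),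
      Finsupp.add_apply, hM.1.factorization_pow, Finsupp.single_eq_same,
      Nat.factorization_eq_zero_of_not_dvd hm, add_zero] at h1
    exact h1.symm
  have hdvd : (p : ℤ) ^ i ∣ (degSum B : ℤ) := by
    refine dvd_of_div_pow_mem hM i ?_
    have hN' : (Nat.card G : ℂ) * c₀ = (p : ℂ) ^ i * m := by exact_mod_cast hN
    rw [show ((degSum B : ℤ) : ℂ) / (p : ℂ) ^ i = c * (m : ℂ) by
      have hm0 : (m : ℂ) ≠ 0 := Nat.cast_ne_zero.2 (by rintro rfl; exact hm (dvd_zero p))
      rw [hcdef, hN', Int.cast_natCast]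
      field_simp]
    exact mul_mem hcR (nat_mem m)
  have hd := blockDefect_eq_of_min (p := p) hχ₀ h0
  have hle := factorization_charDegree_le χ₀ p
  refine dvd_trans (pow_dvd_pow p ?_) (by exact_mod_cast hdvd)
  rw [hi, hd]
  have : c₀.factorization p = (charDegree (χ₀ : G → ℂ)).factorization p := rfl
  omega

/-- The order of a defect group divides the dimension of the local algebra. -/
theorem pow_dvd_finrank_A (hM : IsPModular p M) (hB : IsPBlock M B) (hl : blockRank p B = 1) :
    p ^ blockDefect p B ∣ Module.finrank (ResField M) U.A := by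
  haveI : Fact p.Prime := ⟨hM.1⟩
  obtain ⟨χ₀, hχ₀, h0⟩ := exists_height_zero hB p
  have hd := blockDefect_eq_of_min (p := p) hχ₀ h0
  have hle := factorization_charDegree_le χ₀ p
  have hn := (Nat.factorization_le_iff_dvd U.n_pos.ne' (charDegree_pos χ₀).ne').2
    (U.n_dvd_charDegree hM hB hχ₀) p
  have hA := U.finrank_A_pos
  have hS : degSum B = U.n ^ 2 * Module.finrank (ResField M) U.A := by
    rw [← finrank_blockSpace hB, U.finrank_blockSpace_eq hB]
  have h1 := U.pow_dvd_degSum hM hB hl
  rw [hS, hM.1.pow_dvd_iff_le_factorization (mul_ne_zero (pow_ne_zero 2 U.n_pos.ne') hA.ne'),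
    Nat.factorization_mul (pow_ne_zero 2 U.n_pos.ne') hA.ne', Nat.factorization_pow,
    Finsupp.add_apply, Finsupp.smul_apply, smul_eq_mul] at h1
  rw [hM.1.pow_dvd_iff_le_factorization hA.ne', hd]
  omega

end Units

end Cfsg.Agent.Lib.LocalBlock
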