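import Cfsg.Agent.Lib.CyclicDefect.Nil
import Cfsg.Agent.Lib.DefectOne.TraceIndep
import Mathlib.RingTheory.Artinian.Ring
import Mathlib.RingTheory.Jacobson.Ideal
import Mathlib.RingTheory.Nilpotent.Basic
import Mathlib.Algebra.Ring.GeomSum

/-!
# A block of `p`-regular rank one is a matrix algebra over a local algebra
-/

set_option autoImplicit false
set_option linter.unusedSectionVars false
set_option linter.style.haveILetI false
set_option maxHeartbeats 1000000

namespace Cfsg.Agent.Lib.LocalBlock

open Cfsg Cfsg.Agent.Lib Cfsg.Agent.Lib.Block Cfsg.Agent.Lib.BrauerPairs Cfsg.Agent.Lib.Star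
open Cfsg.Agent.Lib.CyclicDefect

universe u

variable {p : ℕ} {M : Ideal AlgInt} [M.IsPrime] {G : Type u} [Group G] [Finite G]
  {B : Set (IrrCharacter G)}

/-- Matrix units over a local corner. -/
structure Units (M : Ideal AlgInt) [M.IsPrime] (B : Set (IrrCharacter G)) where
  n : ℕ
  n_pos : 0 < n
  i0 : KG M G
  idem : IsIdempotentElem i0
  bar_i0 : bar M B * i0 = i0
  ne_zero : i0 ≠ 0
  X : Fin n → KG M G
  Y : Fin n → KG M G
  bar_X : ∀ j, bar M B * X j = X j
  X_i0 : ∀ j, X j * i0 = X j
  bar_Y : ∀ j, bar M B * Y j = Y j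
  i0_Y : ∀ j, i0 * Y j = Y j
  sum : ∑ j, X j * Y j = bar M B
  orth : ∀ i j, Y i * X j = if i = j then i0 else 0
  local_corner : ∀ a : KG M G, ∃ c : ResField M, IsNilpotent (i0 * a * i0 - c • i0)
  red_ne : ∃ h : G, ¬ p ∣ orderOf h ∧ ∃ χ ∈ B, DefectOne.redFun M χ h ≠ 0

/-- An irreducible representation of the block is isomorphic to any other when the rank is one. -/
theorem asAlgebraHom_eq_zero_of_rank_one (hM : IsPModular p M) (hl : blockRank p B = 1)
    {τ τ' : Σ d : ℕ, Representation (ResField M) G (Fin d → ResField M)}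
    (hτ : τ.2.IsIrreducible) (hτ' : τ'.2.IsIrreducible)
    (hs : ∀ σ : Σ d : ℕ, Representation (ResField M) G (Fin d → ResField M), σ = τ ∨ σ = τ' →
      (fun g => LinearMap.trace (ResField M) (Fin σ.1 → ResField M) (σ.2 g)) ∈
        Submodule.span (ResField M) (DefectOne.redFun M '' B))
    {x : KG M G} (hx : τ.2.asAlgebraHom x = 0) : τ'.2.asAlgebraHom x = 0 := by
  classical
  haveI := DefectOne.resField_isAlgClosed (M := M) hM
  by_contra hne
  have hiso : ∀ e : Representation.Equiv τ.2 τ'.2, False := by
    intro e
    refine hne ?_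
    have key : ∀ (y : KG M G) v,
        e.toLinearEquiv (τ.2.asAlgebraHom y v) = τ'.2.asAlgebraHom y (e.toLinearEquiv v) := by
      intro y v
      induction y using MonoidAlgebra.induction_on with
      | of g =>
        rw [Representation.asAlgebraHom_of, Representation.asAlgebraHom_of]
        exact LinearMap.congr_fun (e.isIntertwining' g) v
      | add f g hf hg => simp only [map_add, LinearMap.add_apply, hf, hg]
      | smul r f hf => simp only [map_smul, LinearMap.smul_apply, hf]
    refine LinearMap.ext fun w => ?_
    obtain ⟨v, rfl⟩ := e.toLinearEquiv.surjective w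
    rw [← key, hx, LinearMap.zero_apply, map_zero, LinearMap.zero_apply]
  have hiso' : ∀ e : Representation.Equiv τ'.2 τ.2, False := fun e => hiso e.symm
  let σ : Fin 2 → Σ d : ℕ, Representation (ResField M) G (Fin d → ResField M) := ![τ, τ']
  have hirr : ∀ i, (σ i).2.IsIrreducible := fun i => by fin_cases i <;> assumption
  have hli := DefectOne.linearIndependent_trace (fun i => (σ i).2) hirr fun i j hij => by
    fin_cases i <;> fin_cases j
    · exact absurd rfl hij
    · exact ⟨hiso⟩
    · exact ⟨hiso'⟩
    · exact absurd rfl hij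
  have h2 := DefectOne.le_blockRank hM (B := B) hli fun i => hs (σ i) (by
    fin_cases i
    · exact Or.inl rfl
    · exact Or.inr rfl)
  rw [hl, Fintype.card_fin] at h2
  omega

/-- The trace of a representation of the block lies in the span of its reduced characters. -/
theorem trace_mem_span (hM : IsPModular p M) (hB : IsPBlock M B) {d : ℕ}
    (τ : Representation (ResField M) G (Fin d → ResField M))
    (hτB : τ.asAlgebraHom (bar M B) = 1) :
    (fun g => LinearMap.trace (ResField M) (Fin d → ResField M) (τ g)) ∈
      Submodule.span (ResField M) (DefectOne.redFun M '' B) := by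
  classical
  haveI : Fact p.Prime := ⟨hM.1⟩
  haveI := resField_charP (M := M) hM
  haveI := DefectOne.resField_isAlgClosed (M := M) hM
  haveI := Fintype.ofFinite G
  set tr : G → ResField M := fun g => LinearMap.trace _ _ (τ g) with htr
  have hnilT : ∀ {x : G}, IsPElem p x → IsNilpotent (τ x - 1) := by
    intro x hx
    obtain ⟨k, hk⟩ := hx
    refine ⟨p ^ k, ?_⟩
    have h := congrArg (Polynomial.aeval (R := ResField M) (τ x))
      (show ((Polynomial.X : Polynomial (ResField M)) - 1) ^ p ^ k = Polynomial.X ^ p ^ k - 1 by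
        rw [sub_pow_char_pow, one_pow])
    simp only [map_pow, map_sub, Polynomial.aeval_X, map_one] at h
    rw [h, ← map_pow, ← hk, pow_orderOf_eq_one, map_one, sub_self]
  have htrreg : DefectOne.RegFun (M := M) p tr := by
    refine ⟨fun y g => ?_, fun x y hxy hx hy => ?_⟩
    · show LinearMap.trace _ _ (τ (y * g * y⁻¹)) = LinearMap.trace _ _ (τ g)
      rw [map_mul, LinearMap.trace_mul_comm, ← map_mul]
      congr 2
      group
    · show LinearMap.trace _ _ (τ (x * y)) = LinearMap.trace _ _ (τ y)
      have hc' : Commute (τ y) (τ x - 1) := (hxy.symm.map τ).sub_right (Commute.one_right _)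
      rw [← sub_eq_zero, ← map_sub, show τ (x * y) - τ y = τ y * (τ x - 1) by
        rw [mul_sub, mul_one, ← map_mul, hxy.eq]]
      exact (LinearMap.isNilpotent_trace_of_isNilpotent
        (hc'.isNilpotent_mul_left (hnilT hx))).eq_zero
  refine DefectOne.RegFun.mem_span_block hM hB htrreg fun y => ?_
  show ∑ g, redC M (blockCoeff B g) * LinearMap.trace _ _ (τ (g * y)) = LinearMap.trace _ _ (τ y)
  conv_rhs => rw [← one_mul (τ y), ← hτB, eq_sum_single (bar M B)]
  simp only [map_sum, Representation.asAlgebraHom_single, Finset.sum_mul, smul_mul_assoc, map_smul,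
    smul_eq_mul, coeff_bar, map_mul]

/-- A block of rank one has matrix units over a local corner. -/
theorem exists_units (hM : IsPModular p M) (hB : IsPBlock M B) (hl : blockRank p B = 1) :
    ∃ U : Units (p := p) M B, True := by
  classical
  haveI : Fact p.Prime := ⟨hM.1⟩
  haveI := resField_charP (M := M) hM
  haveI := DefectOne.resField_isAlgClosed (M := M) hM
  haveI := Fintype.ofFinite G
  haveI : IsArtinianRing (KG M G) := IsArtinianRing.of_finite (ResField M) (KG M G)
  set b : KG M G := bar M B with hbdef
  have hbi : IsIdempotentElem b := isIdempotentElem_bar hB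
  have hbc : IsClassCoeff b := isClassCoeff_bar B
  obtain ⟨d, τ, hτi, hτb⟩ := exists_simple_on hbi hbc (bar_ne_zero hB)
  haveI := hτi
  have htrspan := trace_mem_span hM hB τ hτb
  -- the kernel lies in the radical
  have hJ : ∀ x : KG M G, b * x = x → τ.asAlgebraHom x = 0 →
      x ∈ Ideal.jacobson (⊥ : Ideal (KG M G)) := by
    intro x hbx hx
    refine Ideal.mem_sInf.2 ?_
    rintro m ⟨-, hm⟩
    let W := (KG M G ⧸ m)
    haveI : IsSimpleModule (KG M G) W :=
      isSimpleModule_iff_isCoatom.2 (Ideal.isMaximal_def.1 hm)
    haveI : FiniteDimensional (ResField M) W :=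
      Module.Finite.of_surjective (m.mkQ.restrictScalars (ResField M)) m.mkQ_surjective
    let e := (Module.finBasis (ResField M) W).equivFun
    let d' := Module.finrank (ResField M) W
    let lft : KG M G → Module.End (ResField M) W := fun a =>
      { toFun := fun w => a • w
        map_add' := fun w w' => smul_add a w w'
        map_smul' := fun c w => smul_comm a c w }
    let τ' : Representation (ResField M) G (Fin d' → ResField M) :=
      { toFun := fun g => e.conj (lft (MonoidAlgebra.single g 1))
        map_one' := by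
          have : lft (MonoidAlgebra.single (1 : G) 1) = LinearMap.id := LinearMap.ext fun w => by
            show MonoidAlgebra.single (1 : G) (1 : ResField M) • w = w
            rw [← MonoidAlgebra.one_def, one_smul]
          rw [this]; exact e.conj_id
        map_mul' := fun g g' => by
          have : lft (MonoidAlgebra.single (g * g') 1) =
              lft (MonoidAlgebra.single g 1) ∘ₗ lft (MonoidAlgebra.single g' 1) :=
            LinearMap.ext fun w => by
              show MonoidAlgebra.single (g * g') (1 : ResField M) • w =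
                MonoidAlgebra.single g (1 : ResField M) • (MonoidAlgebra.single g' (1 : ResField M) • w)
              rw [← mul_smul, MonoidAlgebra.single_mul_single, one_mul]
          rw [this]; exact LinearEquiv.conj_comp _ _ _ }
    have hact : ∀ (a : KG M G) (w : W), τ'.asAlgebraHom a (e w) = e (a • w) := by
      intro a w
      induction a using MonoidAlgebra.induction_on with
      | of g =>
        rw [Representation.asAlgebraHom_of]
        show e (lft _ (e.symm (e w))) = _
        rw [e.symm_apply_apply]
        rfl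
      | add f g hf hg => rw [map_add, LinearMap.add_apply, hf, hg, ← map_add, add_smul]
      | smul r f hf => rw [map_smul, LinearMap.smul_apply, hf, ← map_smul, smul_assoc]
    suffices h : ∀ w : W, x • w = 0 by
      have h1 := h (Submodule.Quotient.mk (1 : KG M G))
      rw [← Submodule.Quotient.mk_smul, smul_eq_mul, mul_one, Submodule.Quotient.mk_eq_zero] at h1
      exact h1
    -- the block acts as zero or as one
    let bEnd : W →ₗ[KG M G] W :=
      { toFun := fun w => b • w
        map_add' := fun w w' => smul_add b w w'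
        map_smul' := fun a w => by
          simp only [RingHom.id_apply, ← mul_smul, (hbc.commute a).eq] }
    rcases eq_bot_or_eq_top (LinearMap.range bEnd) with hr | hr
    · intro w
      have h1 : b • w = 0 := LinearMap.congr_fun (LinearMap.range_eq_bot.1 hr) w
      rw [← hbx, (hbc.commute x).eq, mul_smul, h1, smul_zero]
    have hb1 : ∀ w : W, b • w = w := fun w => by
      obtain ⟨v, rfl⟩ := LinearMap.range_eq_top.1 hr w
      show b • b • v = b • v
      rw [← mul_smul, hbi.eq]
    have hτ'b : τ'.asAlgebraHom b = 1 := LinearMap.ext fun v => by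
      obtain ⟨w, rfl⟩ := e.surjective v
      rw [hact, hb1]
      rfl
    haveI hτ'i : τ'.IsIrreducible := by
      haveI : Nontrivial W := IsSimpleModule.nontrivial (KG M G) W
      obtain ⟨w0, hw0⟩ := exists_ne (0 : W)
      haveI : Nontrivial (Subrepresentation τ') := by
        refine ⟨⟨⊥, ⊤, fun h => hw0 ?_⟩⟩
        have : e w0 ∈ (⊥ : Subrepresentation τ').toSubmodule := by rw [h]; trivial
        exact e.map_eq_zero_iff.1 ((Submodule.mem_bot (ResField M)).1 this)
      refine ⟨fun U => ?_⟩
      have hU : ∀ (a : KG M G) v, v ∈ U.toSubmodule → τ'.asAlgebraHom a v ∈ U.toSubmodule := by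
        intro a v hv
        induction a using MonoidAlgebra.induction_on with
        | of g => rw [Representation.asAlgebraHom_of]; exact U.apply_mem_toSubmodule g hv
        | add f g hf hg => rw [map_add, LinearMap.add_apply]; exact add_mem hf hg
        | smul r f hf => rw [map_smul, LinearMap.smul_apply]; exact Submodule.smul_mem _ _ hf
      let T : Submodule (KG M G) W :=
        { carrier := {w | e w ∈ U.toSubmodule}
          add_mem' := fun {a b} ha hb => by
            show e (a + b) ∈ U.toSubmodule
            rw [map_add]; exact add_mem ha hb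
          zero_mem' := by show e 0 ∈ U.toSubmodule; rw [map_zero]; exact zero_mem _
          smul_mem' := fun a w hw => by
            show e (a • w) ∈ U.toSubmodule
            rw [← hact]; exact hU a _ hw }
      rcases eq_bot_or_eq_top T with hT | hT
      · refine Or.inl (Subrepresentation.toSubmodule_injective ((Submodule.eq_bot_iff _).2 fun v hv => ?_))
        obtain ⟨w, rfl⟩ := e.surjective v
        have : w ∈ T := hv
        rw [hT, Submodule.mem_bot] at this
        rw [this, map_zero]
      · refine Or.inr (Subrepresentation.toSubmodule_injective ((Submodule.eq_top_iff').2 fun v => ?_))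
        obtain ⟨w, rfl⟩ := e.surjective v
        exact (hT ▸ Submodule.mem_top : w ∈ T)
    have hx' : τ'.asAlgebraHom x = 0 := asAlgebraHom_eq_zero_of_rank_one hM hl
      (τ := ⟨d, τ⟩) (τ' := ⟨d', τ'⟩) hτi hτ'i
      (by rintro σ (rfl | rfl)
          · exact htrspan
          · exact trace_mem_span hM hB τ' hτ'b) hx
    intro w
    refine e.injective ?_
    rw [← hact, hx', map_zero, LinearMap.zero_apply]
  obtain ⟨L, hL⟩ := IsArtinianRing.isNilpotent_jacobson_bot (R := KG M G)
  set I := Ideal.jacobson (⊥ : Ideal (KG M G)) with hI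
  have hpow : ∀ (m : ℕ) (x : KG M G), x ∈ I → x ^ (m + 1) ∈ I ^ (m + 1) := by
    intro m x hx
    induction m with
    | zero => rwa [zero_add, pow_one, Submodule.pow_one]
    | succ m ih => rw [pow_succ, Submodule.pow_succ]; exact Ideal.mul_mem_mul ih hx
  have hnil : ∀ x ∈ I, x ^ (L + 1) = 0 := fun x hx => by
    have h := hpow L x hx
    rwa [Submodule.pow_succ, hL, Submodule.zero_eq_bot, Submodule.bot_mul, Submodule.mem_bot] at h
  -- a primitive idempotent
  haveI : Nontrivial (Fin d → ResField M) := by
    by_contra hc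
    rw [not_nontrivial_iff_subsingleton] at hc
    exact (DefectOne.linearIndependent_trace (fun _ : Unit => τ) (fun _ => hτi)
      (fun i j hij => absurd (Subsingleton.elim i j) hij)).ne_zero () (funext fun g => by
        show LinearMap.trace _ _ (τ g) = 0
        rw [Subsingleton.elim (τ g) 0, map_zero])
  have hd : 0 < d := by
    rcases Nat.eq_zero_or_pos d with rfl | h
    · exact absurd (inferInstance : Nontrivial (Fin 0 → ResField M))
        (not_nontrivial_iff_subsingleton.2 inferInstance)
    · exact h
  let o : Fin d := ⟨0, hd⟩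
  let E : Fin d → Fin d → Module.End (ResField M) (Fin d → ResField M) := fun i j =>
    (LinearMap.single (ResField M) (fun _ => ResField M) i) ∘ₗ LinearMap.proj j
  have hE : ∀ i j v, E i j v = Pi.single i (v j) := fun _ _ _ => rfl
  obtain ⟨x1, hx1⟩ := asAlgebraHom_surjective τ (E o o)
  have hEoo : E o o * E o o = E o o := LinearMap.ext fun v => by
    simp [hE, Module.End.mul_apply]
  set a1 : KG M G := b * x1 with ha1
  have hτa1 : τ.asAlgebraHom a1 = E o o := by rw [ha1, map_mul, hτb, one_mul, hx1]
  have hba1 : b * a1 = a1 := by rw [ha1, ← mul_assoc, hbi.eq]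
  have hr1 : a1 * a1 - a1 ∈ I := hJ _ (by rw [mul_sub, ← mul_assoc, hba1])
    (by rw [map_sub, map_mul, hτa1, hEoo, sub_self])
  obtain ⟨i0, hi0, ⟨y2, hy2, -⟩, hi0'⟩ := exists_idem (x := a1) (n := L + 1) (hnil _ hr1)
  have hbi0 : b * i0 = i0 := by
    rw [hy2, ← mul_assoc, pow_succ', ← mul_assoc b, hba1]
  have hτi0 : τ.asAlgebraHom i0 = E o o := by
    have h1 : IsIdempotentElem (E o o) := hEoo
    rw [hi0', map_sub, map_one, map_pow, map_sub, map_one, map_pow, hτa1, h1.pow_eq L.succ_ne_zero,
      h1.one_sub.pow_eq L.succ_ne_zero, sub_sub_cancel]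
  have hi00 : i0 ≠ 0 := by
    intro h
    rw [h, map_zero] at hτi0
    have := congrFun (LinearMap.congr_fun hτi0.symm (Pi.single o 1)) o
    simp [hE] at this
  have hcorner : ∀ a : KG M G, ∃ c : ResField M, IsNilpotent (i0 * a * i0 - c • i0) := by
    intro x
    set c := τ.asAlgebraHom x (Pi.single o 1) o with hc
    refine ⟨c, L + 1, hnil _ (hJ _ (by rw [mul_sub, mul_smul_comm, ← mul_assoc, ← mul_assoc, hbi0]) ?_)⟩
    rw [map_sub, map_smul, map_mul, map_mul, hτi0, sub_eq_zero]
    refine LinearMap.ext fun v => ?_
    simp only [Module.End.mul_apply, LinearMap.smul_apply, hE]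
    rw [show Pi.single o (v o) = v o • (Pi.single o 1 : Fin d → ResField M) by
      rw [← Pi.single_smul, smul_eq_mul, mul_one], map_smul, Pi.smul_apply, ← hc,
      ← Pi.single_smul, ← Pi.single_smul]
    simp [mul_comm]
  choose xl hxl using fun j => asAlgebraHom_surjective τ (E j o)
  choose yl hyl using fun j => asAlgebraHom_surjective τ (E o j)
  let X : Fin d → KG M G := fun j => b * xl j * i0
  let Y : Fin d → KG M G := fun j => i0 * yl j * b
  have hτX : ∀ j, τ.asAlgebraHom (X j) = E j o := fun j => LinearMap.ext fun v => by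
    simp [X, map_mul, hτb, hxl, hτi0, hE, Module.End.mul_apply]
  have hτY : ∀ j, τ.asAlgebraHom (Y j) = E o j := fun j => LinearMap.ext fun v => by
    simp [Y, map_mul, hτb, hyl, hτi0, hE, Module.End.mul_apply]
  have hbX : ∀ j, b * X j = X j := fun j => by simp only [X, ← mul_assoc, hbi.eq]
  have hXi : ∀ j, X j * i0 = X j := fun j => by simp only [X, mul_assoc, hi0.eq]
  have hbY : ∀ j, b * Y j = Y j := fun j => by simp only [Y, ← mul_assoc, hbi0]
  have hiY : ∀ j, i0 * Y j = Y j := fun j => by simp only [Y, ← mul_assoc, hi0.eq]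
  -- invert the matrix of products
  let C : Matrix (Fin d) (Fin d) (KG M G) := Matrix.of fun i j => Y i * X j
  let I0 : Matrix (Fin d) (Fin d) (KG M G) := Matrix.diagonal fun _ => i0
  set N : Matrix (Fin d) (Fin d) (KG M G) := I0 - C with hN
  have hNI : ∀ i j, N i j ∈ I := by
    intro i j
    refine hJ _ ?_ ?_
    · simp only [hN, Matrix.sub_apply, I0, C, Matrix.of_apply, Matrix.diagonal_apply, mul_sub,
        mul_ite, mul_zero, hbi0, ← mul_assoc, hbY]
    · simp only [hN, Matrix.sub_apply, I0, C, Matrix.of_apply, Matrix.diagonal_apply]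
      rw [map_sub, map_mul, hτX, hτY, sub_eq_zero]
      split_ifs with h
      · subst h
        rw [hτi0]
        exact LinearMap.ext fun v => by simp [hE, Module.End.mul_apply]
      · rw [map_zero]
        exact LinearMap.ext fun v => by simp [hE, Module.End.mul_apply, h]
  have hNpow : ∀ m : ℕ, ∀ i j, (N ^ (m + 1)) i j ∈ I ^ (m + 1) := by
    intro m
    induction m with
    | zero => intro i j; rw [zero_add, pow_one, Submodule.pow_one]; exact hNI i j
    | succ m ih =>
      intro i j
      rw [pow_succ, Matrix.mul_apply, Submodule.pow_succ]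
      exact sum_mem fun l _ => Ideal.mul_mem_mul (ih i l) (hNI l j)
  have hN0 : N ^ (L + 1) = 0 := Matrix.ext fun i j => by
    have h := hNpow L i j
    rwa [Submodule.pow_succ, hL, Submodule.zero_eq_bot, Submodule.bot_mul, Submodule.mem_bot] at h
  have hNI0 : N * (1 - I0) = 0 := by
    refine Matrix.ext fun i j => ?_
    rw [mul_sub, mul_one, Matrix.sub_apply, Matrix.zero_apply, sub_eq_zero, Matrix.mul_diagonal]
    simp only [hN, Matrix.sub_apply, I0, C, Matrix.of_apply, Matrix.diagonal_apply, sub_mul,
      ite_mul, zero_mul, hi0.eq, mul_assoc, hXi]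
  set W : Matrix (Fin d) (Fin d) (KG M G) := ∑ m ∈ Finset.range (L + 1), N ^ m with hW
  have hWinv : W * (1 - N) = 1 := by rw [hW, geom_sum_mul_neg, hN0, sub_zero]
  have hW1 : W * (1 - I0) = 1 - I0 := by
    rw [hW, Finset.sum_range_succ', add_mul, pow_zero, one_mul, Finset.sum_mul,
      Finset.sum_eq_zero fun m _ => by rw [pow_succ, mul_assoc, hNI0, mul_zero], zero_add]
  have hWC : W * C = I0 := by
    rw [show C = (1 - N) - (1 - I0) by rw [hN]; abel, mul_sub, hWinv, hW1, sub_sub_cancel]
  let Y' : Fin d → KG M G := fun i => i0 * ∑ l, W i l * Y l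
  have horth : ∀ i j, Y' i * X j = if i = j then i0 else 0 := by
    intro i j
    have h1 := congrFun (congrFun hWC i) j
    rw [Matrix.mul_apply] at h1
    simp only [C, I0, Matrix.of_apply, Matrix.diagonal_apply] at h1
    show i0 * (∑ l, W i l * Y l) * X j = _
    rw [mul_assoc, Finset.sum_mul]
    simp only [mul_assoc]
    rw [h1, mul_ite, hi0.eq, mul_zero]
  have hbY' : ∀ j, b * Y' j = Y' j := fun j => by simp only [Y', ← mul_assoc, hbi0]
  have hiY' : ∀ j, i0 * Y' j = Y' j := fun j => by simp only [Y', ← mul_assoc, hi0.eq]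
  -- the sum is the block
  set S := ∑ j, X j * Y' j with hS
  have hbS : b * S = S := by
    rw [hS, Finset.mul_sum]
    exact Finset.sum_congr rfl fun j _ => by rw [← mul_assoc, hbX]
  have hτS : τ.asAlgebraHom (b - S) = 0 := by
    have hτN : ∀ i j, τ.asAlgebraHom (N i j) = 0 := by
      intro i j
      simp only [hN, Matrix.sub_apply, I0, C, Matrix.of_apply, Matrix.diagonal_apply]
      rw [map_sub, map_mul, hτX, hτY, sub_eq_zero]
      split_ifs with h
      · subst h
        rw [hτi0]
        exact LinearMap.ext fun v => by simp [hE, Module.End.mul_apply]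
      · rw [map_zero]
        exact LinearMap.ext fun v => by simp [hE, Module.End.mul_apply, h]
    have hτW : ∀ i j, τ.asAlgebraHom (W i j) = if i = j then 1 else 0 := by
      intro i j
      rw [hW, Matrix.sum_apply, map_sum, Finset.sum_range_succ', Finset.sum_eq_zero fun m _ => by
        rw [pow_succ, Matrix.mul_apply, map_sum]
        exact Finset.sum_eq_zero fun l _ => by rw [map_mul, hτN, mul_zero],
        zero_add, pow_zero, Matrix.one_apply]
      split_ifs
      · rw [map_one]
      · rw [map_zero]
    rw [map_sub, hτb, hS, map_sum, sub_eq_zero]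
    simp only [Y', map_mul, map_sum, hτW, hτX, hτi0, hτY, ite_mul, one_mul, zero_mul,
      Finset.sum_ite_eq, Finset.mem_univ, if_true]
    refine LinearMap.ext fun v => ?_
    simp only [LinearMap.sum_apply, Module.End.mul_apply, Module.End.one_apply, hE, Pi.single_eq_same]
    exact (Finset.univ_sum_single v).symm
  have hSi : IsIdempotentElem (b - S) := by
    have hSS : S * S = S := by
      rw [hS, Finset.sum_mul_sum]
      refine Finset.sum_congr rfl fun i _ => ?_
      have : ∀ j, X i * Y' i * (X j * Y' j) = if i = j then X i * Y' j else 0 := fun j => by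
        rw [mul_assoc, ← mul_assoc (Y' i), horth, ite_mul, zero_mul, mul_ite, mul_zero, hiY']
      rw [Finset.sum_congr rfl fun j _ => this j]
      simp
    show (b - S) * (b - S) = b - S
    rw [sub_mul, mul_sub, mul_sub, hbi.eq, hbS, ← (hbc.commute S).eq, hbS, hSS]
    abel
  have hsum : S = b := by
    have h0 : b - S = 0 := idem_eq_zero_of_nilpotent hSi
      ⟨L + 1, hnil _ (hJ _ (by rw [mul_sub, hbi.eq, hbS]) hτS)⟩
    exact (sub_eq_zero.1 h0).symm
  -- a nonzero reduced value
  have hred : ∃ h : G, ¬ p ∣ orderOf h ∧ ∃ χ ∈ B, DefectOne.redFun M χ h ≠ 0 := by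
    by_contra hcon
    push Not at hcon
    have hz : ∀ f ∈ DefectOne.redFun M '' B, f = 0 := by
      rintro _ ⟨χ, hχ, rfl⟩
      exact DefectOne.RegFun.ext' (DefectOne.regFun_redFun hM χ)
        ⟨fun _ _ => rfl, fun _ _ _ _ _ => rfl⟩ fun g hg => hcon g hg χ hχ
    have h0 := (DefectOne.linearIndependent_trace (fun _ : Unit => τ) (fun _ => hτi)
      (fun i j hij => absurd (Subsingleton.elim i j) hij)).ne_zero ()
    refine h0 ?_
    have h1 := htrspan
    rw [Submodule.span_eq_bot.2 hz, Submodule.mem_bot] at h1
    exact h1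
  exact ⟨⟨d, hd, i0, hi0, hbi0, hi00, X, Y', hbX, hXi, hbY', hiY', hsum, horth, hcorner, hred⟩,
    trivial⟩

end Cfsg.Agent.Lib.LocalBlock
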